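import Cfsg.Agent.S0011
import Cfsg.Agent.H19.Frattini
import Cfsg.Agent.H32.MinimalNonNilpotent
import Cfsg.Agent.H33.Nilpotent
import Cfsg.Agent.H33.Frattini

/-! The quotient of a minimal non-nilpotent group by the derived group of its normal Sylow
subgroup. -/

open scoped commutatorElement

namespace Cfsg.Agent.H33

universe u

/-- The commutator of two elements of a nilpotent subgroup, part by part. -/
theorem commutator_parts {G : Type*} [Group G] [Finite G] {p : ℕ} [Fact p.Prime] {A : Subgroup G}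
    {x1 x2 y1 y2 : G} (hx1 : x1 ∈ pPart p A) (hx2 : x2 ∈ pCoPart p A) (hy1 : y1 ∈ pPart p A)
    (hy2 : y2 ∈ pCoPart p A) : ⁅x1 * x2, y1 * y2⁆ = ⁅x1, y1⁆ * ⁅x2, y2⁆ := by
  have := (map_commutatorElement (MonoidHom.noncommCoprod (pPart p A).subtype (pCoPart p A).subtype
    fun a b => commute_parts a.2 b.2) (⟨x1, hx1⟩, ⟨x2, hx2⟩) (⟨y1, hy1⟩, ⟨y2, hy2⟩)).symm
  simpa [commutatorElement_def] using this

/-- Elements of a nilpotent subgroup split into their parts. -/
theorem exists_parts {G : Type*} [Group G] {p : ℕ} {A : Subgroup G} {x : G}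
    (hx : x ∈ pPart p A ⊔ pCoPart p A) : ∃ a ∈ pPart p A, ∃ b ∈ pCoPart p A, x = a * b := by
  rw [← SetLike.mem_coe, Subgroup.coe_mul_of_left_le_normalizer_right _ _ ((pPart_le p A).trans
    (le_normalizer_pCoPart p A))] at hx
  obtain ⟨a, ha, b, hb, e⟩ := hx
  exact ⟨a, ha, b, hb, e.symm⟩

/-- In a minimal non-nilpotent group the normal Sylow subgroup has a cyclic supplement. -/
theorem exists_cyclic_supplement_of_minimalNonNilpotent {G : Type u} [Group G] [Finite G]
    (hG : Cfsg.IsMinimalNonNilpotent G) (q : ℕ) [hq' : Fact q.Prime] (hq : q ∣ Nat.card G)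
    (Q : Sylow q G) (hQ : (Q : Subgroup G).Normal) :
    ∃ C : Subgroup G, IsCyclic C ∧ C ⊔ (Q : Subgroup G) = ⊤ := by
  obtain ⟨p, r, hp, hr, hpr, P, R, hPc, hRn, htop⟩ := H32.minimalNonNilpotent_structure hG
  haveI : Fact p.Prime := ⟨hp⟩
  haveI : Fact r.Prime := ⟨hr⟩
  by_cases hqr : q = r
  · subst hqr
    haveI := Q.unique_of_normal hQ
    exact ⟨P, hPc, by rw [Subsingleton.elim Q R]; exact htop⟩
  exfalso
  -- every prime divisor is `p` or `r`
  have hdiv : ∀ s : ℕ, s.Prime → s ∣ Nat.card G → s = p ∨ s = r := by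
    intro s hs hd
    have h1 : Nat.card G ∣ Nat.card (P : Subgroup G) * Nat.card (R : Subgroup G) := by
      rw [← Subgroup.card_top (G := G), ← htop]
      have h2 := Subgroup.relIndex_mul_relIndex (⊥ : Subgroup G) (R : Subgroup G)
        ((P : Subgroup G) ⊔ R) bot_le le_sup_right
      rw [Subgroup.relIndex_bot_left, Subgroup.relIndex_bot_left, sup_comm (P : Subgroup G),
        Subgroup.relIndex_sup_left] at h2
      rw [sup_comm (P : Subgroup G)]
      rw [← h2, mul_comm]
      exact Nat.mul_dvd_mul_right (Subgroup.relIndex_dvd_card _ _) _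
    obtain ⟨a, ha⟩ := IsPGroup.iff_card.1 P.isPGroup'
    obtain ⟨b, hb⟩ := IsPGroup.iff_card.1 R.isPGroup'
    rw [ha, hb] at h1
    rcases hs.dvd_mul.1 (hd.trans h1) with h | h
    · exact Or.inl ((Nat.prime_dvd_prime_iff_eq hs hp).1 (hs.dvd_of_dvd_pow h))
    · exact Or.inr ((Nat.prime_dvd_prime_iff_eq hs hr).1 (hs.dvd_of_dvd_pow h))
  have hqp : q = p := (hdiv q hq'.out hq).resolve_right hqr
  subst hqp
  refine hG.1 ((Group.isNilpotent_of_finite_tfae (G := G).out 0 3 rfl rfl).2 fun s hs S => ?_)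
  by_cases hd : s ∣ Nat.card G
  · rcases hdiv s hs.out hd with rfl | rfl
    · haveI := Q.unique_of_normal hQ
      rwa [Subsingleton.elim S Q]
    · haveI := R.unique_of_normal hRn
      rwa [Subsingleton.elim S R]
  · have hb : (S : Subgroup G) = ⊥ := by
      rw [← Subgroup.card_eq_one, S.card_eq_multiplicity, Nat.factorization_eq_zero_of_not_dvd hd,
        pow_zero]
    rw [hb]
    infer_instance

/-- A minimal non-nilpotent group stays non-abelian modulo the derived group of its normal Sylow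
subgroup, all of whose proper subgroups become abelian. -/
theorem minimalNonNilpotent_quotient {G : Type u} [Group G] [Finite G]
    (hG : Cfsg.IsMinimalNonNilpotent G) (q : ℕ) [Fact q.Prime] (hq : q ∣ Nat.card G)
    (Q : Sylow q G) (hQ : (Q : Subgroup G).Normal) (D : Subgroup G) [D.Normal]
    (hD : D = (commutator ↥(Q : Subgroup G)).map (Q : Subgroup G).subtype) :
    ¬ IsMulCommutative (G ⧸ D) ∧ ∀ K : Subgroup (G ⧸ D), K ≠ ⊤ → IsMulCommutative K := by
  haveI := hQ
  constructor
  · intro hc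
    refine hG.1 (Cfsg.Agent.S0011.result ?_)
    have hDΦ : D ≤ frattini G := by
      rw [hD]
      exact (Subgroup.map_mono (H19.commutator_pow_mem_frattini Q.isPGroup').1).trans
        (map_frattini_le _)
    haveI : IsMulCommutative (G ⧸ frattini G) := ⟨⟨fun a b => by
      induction a using QuotientGroup.induction_on with | H x => ?_
      induction b using QuotientGroup.induction_on with | H y => ?_
      have h1 : (x : G ⧸ D) * (y : G ⧸ D) = (y : G ⧸ D) * (x : G ⧸ D) := hc.is_comm.comm _ _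
      rw [← QuotientGroup.mk_mul, ← QuotientGroup.mk_mul, QuotientGroup.eq] at h1 ⊢
      exact hDΦ h1⟩⟩
    let _ : CommGroup (G ⧸ frattini G) :=
      { (inferInstance : Group (G ⧸ frattini G)) with mul_comm := IsMulCommutative.is_comm.comm }
    infer_instance
  · intro K hK
    obtain ⟨C, hCc, hCtop⟩ := exists_cyclic_supplement_of_minimalNonNilpotent hG q hq Q hQ
    set H := K.comap (QuotientGroup.mk' D) with hH
    have hH1 : H ≠ ⊤ := fun e => hK (by
      rw [← Subgroup.map_comap_eq_self_of_surjective (QuotientGroup.mk'_surjective D) K, ← hH, e,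
        Subgroup.map_top_of_surjective _ (QuotientGroup.mk'_surjective D)])
    have hHn := hG.2 H hH1
    have hpQ : pPart q H ≤ (Q : Subgroup G) := by
      obtain ⟨R, hR⟩ := (isPGroup_pPart (p := q) (A := H)).exists_le_sylow
      haveI := Q.unique_of_normal hQ
      rwa [Subsingleton.elim R Q] at hR
    have hsurj := QuotientGroup.mk'_surjective (Q : Subgroup G)
    have hGQ : ∀ x y : G ⧸ (Q : Subgroup G), Commute x y := by
      have hmap : C.map (QuotientGroup.mk' (Q : Subgroup G)) = ⊤ := by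
        rw [← Subgroup.map_top_of_surjective _ hsurj, ← hCtop, Subgroup.map_sup,
          QuotientGroup.map_mk'_self, sup_bot_eq]
      haveI := hCc
      intro x y
      have hx : x ∈ C.map (QuotientGroup.mk' (Q : Subgroup G)) := hmap ▸ Subgroup.mem_top x
      have hy : y ∈ C.map (QuotientGroup.mk' (Q : Subgroup G)) := hmap ▸ Subgroup.mem_top y
      obtain ⟨a, ha, rfl⟩ := hx
      obtain ⟨b, hb, rfl⟩ := hy
      have hab : Commute a b := congrArg (Subtype.val : C → G)
        (IsMulCommutative.is_comm.comm (⟨a, ha⟩ : C) ⟨b, hb⟩)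
      exact hab.map _
    have hcomm : ∀ x ∈ H, ∀ y ∈ H, ⁅x, y⁆ ∈ D := by
      intro x hx y hy
      rw [← pPart_sup_pCoPart (p := q) hHn] at hx hy
      obtain ⟨x1, hx1, x2, hx2, rfl⟩ := exists_parts hx
      obtain ⟨y1, hy1, y2, hy2, rfl⟩ := exists_parts hy
      have h2 : ⁅x2, y2⁆ = 1 := by
        have hin : ⁅x2, y2⁆ ∈ (Q : Subgroup G) := by
          rw [← QuotientGroup.eq_one_iff]
          change QuotientGroup.mk' (Q : Subgroup G) _ = 1
          rw [map_commutatorElement, commutatorElement_eq_one_iff_mul_comm]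
          exact (hGQ _ _).eq
        have hin' : ⁅x2, y2⁆ ∈ pCoPart q H := by
          rw [commutatorElement_def]
          exact mul_mem (mul_mem (mul_mem hx2 hy2) (inv_mem hx2)) (inv_mem hy2)
        exact Subgroup.mem_bot.1 ((H19.inf_eq_bot_of_isPGroup_coprime Q.isPGroup'
          (card_pCoPart_coprime (p := q) (A := H))) ▸ Subgroup.mem_inf.2 ⟨hin, hin'⟩)
      have e : ⁅x1 * x2, y1 * y2⁆ = ⁅x1, y1⁆ * ⁅x2, y2⁆ := commutator_parts hx1 hx2 hy1 hy2
      rw [e, h2, mul_one, hD]
      refine ⟨⁅(⟨x1, hpQ hx1⟩ : (Q : Subgroup G)), ⟨y1, hpQ hy1⟩⁆, ?_, rfl⟩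
      rw [commutator_def]
      exact Subgroup.commutator_mem_commutator (Subgroup.mem_top _) (Subgroup.mem_top _)
    refine ⟨⟨fun a b => Subtype.ext ?_⟩⟩
    obtain ⟨x, hx⟩ := QuotientGroup.mk'_surjective D (a : G ⧸ D)
    obtain ⟨y, hy⟩ := QuotientGroup.mk'_surjective D (b : G ⧸ D)
    have := hcomm x (show QuotientGroup.mk' D x ∈ K by rw [hx]; exact a.2) y
      (show QuotientGroup.mk' D y ∈ K by rw [hy]; exact b.2)
    rw [← QuotientGroup.eq_one_iff] at this
    change QuotientGroup.mk' D _ = 1 at this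
    rw [map_commutatorElement, commutatorElement_eq_one_iff_mul_comm, hx, hy] at this
    exact this

end Cfsg.Agent.H33
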