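import Cfsg.Agent.H33.KegelWielandt
import Cfsg.Agent.H33.Ito
import Cfsg.Agent.H33.MinimalNonNilpotent
import Cfsg.Agent.H33.ItoNormal
import Cfsg.Agent.H33.Frattini
import Cfsg.Agent.H19.Misc
import Cfsg.Agent.H19.MinimalNormal
import Cfsg.Agent.H19.Carter
import Cfsg.Agent.H32.Basic
import Mathlib.Data.Nat.Factors

/-! Derived length of a product of an abelian group and a group of class two. -/

open scoped Pointwise commutatorElement

namespace Cfsg.Agent.H33

universe u

/-- Groups whose commutator subgroup is commutative have derived length at most two. -/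
theorem derivedSeries_two_eq_bot {X : Type*} [Group X] (h : IsMulCommutative (commutator X)) :
    derivedSeries X 2 = ⊥ := by
  rw [show derivedSeries X 2 = ⁅derivedSeries X 1, derivedSeries X 1⁆ from derivedSeries_succ X 1,
    derivedSeries_one, eq_bot_iff, Subgroup.commutator_le]
  intro x hx y hy
  exact Subgroup.mem_bot.2 (commutatorElement_eq_one_iff_mul_comm.2
    (congrArg Subtype.val (h.is_comm.comm ⟨x, hx⟩ ⟨y, hy⟩)))

/-- The derived series continues inside a subgroup it has entered. -/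
theorem derivedSeries_add_le {G : Type*} [Group G] {M : Subgroup G} {d : ℕ}
    (h : derivedSeries G d ≤ M) (j : ℕ) :
    derivedSeries G (d + j) ≤ (derivedSeries M j).map M.subtype := by
  induction j with
  | zero => rwa [Nat.add_zero, derivedSeries_zero, ← MonoidHom.range_eq_map, Subgroup.range_subtype]
  | succ j ih =>
    rw [← Nat.add_assoc, derivedSeries_succ, derivedSeries_succ, Subgroup.map_commutator]
    exact Subgroup.commutator_mono ih ih

/-- The configuration with a core-free maximal subgroup over the abelian factor is impossible. -/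
theorem false_of_corefree_maximal {X : Type*} [Group X] [Finite X] [Group.IsSolvable X]
    {A Y M : Subgroup X} [IsMulCommutative A] (hYn : Group.IsNilpotent Y)
    (h : ∀ g : X, ∃ a ∈ A, ∃ y ∈ Y, g = a * y) (hM : IsCoatom M) (hAM : A ≤ M)
    (hcore : ∀ D : Subgroup X, D.Normal → D ≤ M → D = ⊥)
    (hz : ∀ z ∈ ⁅Y, Y⁆, z ≠ 1 → A ⊔ Subgroup.zpowers z = ⊤) (hne : ⁅Y, Y⁆ ≠ ⊥) : False := by
  haveI : Nontrivial X := by
    by_contra hs
    rw [not_nontrivial_iff_subsingleton] at hs
    exact hM.1 (Subsingleton.elim _ _)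
  haveI := hYn
  obtain ⟨N, hN, hN0, -, hNmin⟩ := H19.exists_minimalNormal_le (⊤ : Subgroup X) top_ne_bot
  haveI := hN
  obtain ⟨hNc, p, hp, hNp, -⟩ := H19.minimalNormal_elementary N inferInstance hN0 hNmin
  haveI := hNc
  haveI : Fact p.Prime := ⟨hp⟩
  have hsup : N ⊔ M = ⊤ := hM.2 _ (right_lt_sup.2 fun e => hN0 (hcore N hN e))
  have hinf : N ⊓ M = ⊥ := hcore _ (H19.inf_normal_of_sup_eq_top N M hsup) inf_le_right
  have hNM : ∀ x ∈ N, x ∈ M → x = 1 := fun x h1 h2 =>
    Subgroup.mem_bot.1 (hinf.le (Subgroup.mem_inf.2 ⟨h1, h2⟩))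
  obtain ⟨k, hk⟩ := IsPGroup.iff_card.1 hNp
  have hMk : M.index = p ^ k := by
    rw [← hk]
    exact (Subgroup.isComplement'_of_disjoint_and_mul_eq_univ (disjoint_iff.2 hinf) (by
      rw [← Subgroup.normal_mul, hsup, Subgroup.coe_top])).index_eq_card
  have hCN : M ⊓ Subgroup.centralizer (N : Set X) = ⊥ := by
    refine hcore _ ⟨fun x hx g => ?_⟩ inf_le_left
    obtain ⟨n, hn, m, hm, rfl⟩ := H19.exists_mul_of_sup_eq_top hsup g
    rw [Subgroup.mem_inf] at hx ⊢
    have h1 : m * x * m⁻¹ ∈ Subgroup.centralizer (N : Set X) :=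
      (inferInstance : (Subgroup.centralizer (N : Set X)).Normal).conj_mem x hx.2 m
    have h2 : n * m * x * (n * m)⁻¹ = m * x * m⁻¹ := by
      calc n * m * x * (n * m)⁻¹ = n * (m * x * m⁻¹) * n⁻¹ := by group
        _ = m * x * m⁻¹ := by rw [Subgroup.mem_centralizer_iff.1 h1 n hn, mul_inv_cancel_right]
    rw [h2]
    exact ⟨M.mul_mem (M.mul_mem hm hx.1) (M.inv_mem hm), h1⟩
  -- `M` has no nontrivial normal `p`-subgroup
  have hOp : ∀ P : Subgroup X, P ≤ M → IsPGroup p P → M ≤ Subgroup.normalizer (P : Set X) →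
      P = ⊥ := by
    intro P hPM hP hMP
    have hU0 : N ⊓ Subgroup.centralizer (P : Set X) ≠ ⊥ :=
      inf_centralizer_ne_bot hP hNp hN0 (le_top.trans (Subgroup.normalizer_eq_top (H := N)).ge)
    haveI hUn : (N ⊓ Subgroup.centralizer (P : Set X)).Normal := by
      rw [← Subgroup.normalizer_eq_top_iff, eq_top_iff, ← hsup]
      refine sup_le (fun n hn => ?_) ?_
      · refine Subgroup.mem_normalizer_iff.2 fun y => ?_
        have hfix : ∀ y ∈ N, n * y * n⁻¹ = y := fun y hy => by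
          rw [show n * y = y * n from
            congrArg Subtype.val (hNc.is_comm.comm (⟨n, hn⟩ : N) (⟨y, hy⟩ : N)), mul_inv_cancel_right]
        constructor <;> intro hy
        · rwa [hfix y (Subgroup.mem_inf.1 hy).1]
        · have hy1 : y ∈ N := by
            simpa [mul_assoc] using hN.conj_mem _ (Subgroup.mem_inf.1 hy).1 n⁻¹
          rwa [hfix y hy1] at hy
      · refine (le_inf ?_ (hMP.trans normalizer_le_normalizer_centralizer)).trans
          Subgroup.inf_normalizer_le_normalizer_inf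
        rw [Subgroup.normalizer_eq_top]
        exact le_top
    rw [eq_bot_iff, ← hCN]
    refine le_inf hPM fun x hx => Subgroup.mem_centralizer_iff.2 fun n hn => ?_
    have hnU : n ∈ N ⊓ Subgroup.centralizer (P : Set X) :=
      ((hNmin _ hUn inf_le_left).resolve_left hU0).symm ▸ hn
    exact ((Subgroup.mem_centralizer_iff.1 (Subgroup.mem_inf.1 hnU).2) x hx).symm
  -- the trace of `Y` on `M` is abelian
  have hzM : ∀ z ∈ ⁅Y, Y⁆, z ∈ M → z = 1 := fun z hz1 hz2 => by
    by_contra h1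
    exact hM.1 (top_le_iff.1 ((hz z hz1 h1).ge.trans (sup_le hAM (Subgroup.zpowers_le.2 hz2))))
  have hY0 : ∀ x ∈ Y ⊓ M, ∀ y ∈ Y ⊓ M, x * y = y * x := by
    intro x hx y hy
    rw [Subgroup.mem_inf] at hx hy
    refine commutatorElement_eq_one_iff_mul_comm.1
      (hzM _ (Subgroup.commutator_mem_commutator hx.1 hy.1) ?_)
    rw [commutatorElement_def]
    exact mul_mem (mul_mem (mul_mem hx.2 hy.2) (inv_mem hx.2)) (inv_mem hy.2)
  -- `Y` is a `p`-group
  have hQM : pCoPart p Y ≤ M := by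
    haveI : ((pCoPart p Y).subgroupOf Y).Normal :=
      Subgroup.normal_subgroupOf_of_le_normalizer (le_normalizer_pCoPart p Y)
    have h1 : M.relIndex (pCoPart p Y) ∣ M.relIndex Y := by
      rw [← Subgroup.relIndex_subgroupOf (pCoPart_le p Y)]
      exact H32.relIndex_dvd_index' (M.subgroupOf Y) _
    rw [← index_eq_relIndex (A := Y) (B := M) (fun g => by
      obtain ⟨y, hy, a, ha, e⟩ := prod_swap h g
      exact ⟨y, hy, a, hAM ha, e⟩), hMk] at h1
    exact Subgroup.relIndex_eq_one.1 (Nat.eq_one_of_dvd_coprimes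
      (card_pCoPart_coprime.pow_right k) (Subgroup.relIndex_dvd_card _ _) h1)
  have hQ1 : pCoPart p Y = ⊥ := by
    rw [eq_bot_iff, ← hCN]
    refine le_inf hQM fun q hq => Subgroup.mem_centralizer_iff.2 fun n hn => ?_
    obtain ⟨a, ha, y, hy, e⟩ := h n
    rw [← pPart_sup_pCoPart (p := p) hYn] at hy
    obtain ⟨u, hu, v, hv, rfl⟩ := exists_parts hy
    have huv := commute_parts hu hv
    have huq := commute_parts hu hq
    set m := a * v with hm
    have hmM : m ∈ M := M.mul_mem (hAM ha) (hQM hv)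
    have e1 : n = m * u := by rw [e, huv.eq, hm, mul_assoc]
    have e2 : q * m⁻¹ * q⁻¹ * (q * n * q⁻¹) = m⁻¹ * n := by
      rw [e1]
      calc q * m⁻¹ * q⁻¹ * (q * (m * u) * q⁻¹) = q * u * q⁻¹ := by group
        _ = u := by rw [← huq.eq, mul_inv_cancel_right]
        _ = m⁻¹ * (m * u) := by group
    have h3 : n * (q * n * q⁻¹)⁻¹ = m * (q * m⁻¹ * q⁻¹) := by
      calc n * (q * n * q⁻¹)⁻¹ = m * (m⁻¹ * n) * (q * n * q⁻¹)⁻¹ := by group
        _ = m * (q * m⁻¹ * q⁻¹ * (q * n * q⁻¹)) * (q * n * q⁻¹)⁻¹ := by rw [e2]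
        _ = m * (q * m⁻¹ * q⁻¹) := by group
    have h4 : n * (q * n * q⁻¹)⁻¹ = 1 := hNM _
      (N.mul_mem hn (N.inv_mem (hN.conj_mem n hn q)))
      (h3 ▸ M.mul_mem hmM (M.mul_mem (M.mul_mem (hQM hq) (M.inv_mem hmM)) (M.inv_mem (hQM hq))))
    exact (mul_inv_eq_iff_eq_mul.1 (mul_inv_eq_one.1 h4).symm).symm
  have hYp : IsPGroup p Y := by
    have e := pPart_sup_pCoPart (p := p) hYn
    rw [hQ1, sup_bot_eq] at e
    exact e ▸ isPGroup_pPart
  -- the derived subgroup of `M` has no `p`-elements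
  have hfacM : ∀ g : M, ∃ a ∈ A.subgroupOf M, ∃ b ∈ (Y ⊓ M).subgroupOf M, g = a * b :=
    prod_subgroupOf fun g hg => by
      obtain ⟨a, ha, b, hb, e⟩ := prod_of_left_le h hAM g hg
      exact ⟨a, ⟨ha, hAM ha⟩, b, ⟨hb, (Subgroup.mem_inf.1 hb).2⟩, e⟩
  haveI hAM' : IsMulCommutative (A.subgroupOf M) := ⟨⟨fun a b => Subtype.ext (Subtype.ext
    (congrArg (Subtype.val : A → X) (IsMulCommutative.is_comm.comm
      (⟨a.1.1, a.2⟩ : A) ⟨b.1.1, b.2⟩)))⟩⟩
  haveI hYM' : IsMulCommutative ((Y ⊓ M).subgroupOf M) :=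
    ⟨⟨fun a b => Subtype.ext (Subtype.ext (hY0 _ a.2 _ b.2))⟩⟩
  have hMab : IsMulCommutative (commutator M) := isMulCommutative_commutator_of_prod hfacM
  haveI hM'c : IsMulCommutative (⁅M, M⁆ : Subgroup X) := ⟨⟨fun a b => Subtype.ext (by
    obtain ⟨a, ha⟩ := a
    obtain ⟨b, hb⟩ := b
    rw [← Subgroup.map_subtype_commutator] at ha hb
    obtain ⟨a', ha', rfl⟩ := ha
    obtain ⟨b', hb', rfl⟩ := hb
    exact congrArg (fun t : commutator M => ((t : M) : X))
      (hMab.is_comm.comm ⟨a', ha'⟩ ⟨b', hb'⟩))⟩⟩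
  have hM'n : Group.IsNilpotent (⁅M, M⁆ : Subgroup X) := by
    let _ : CommGroup (⁅M, M⁆ : Subgroup X) :=
      { (inferInstance : Group (⁅M, M⁆ : Subgroup X)) with mul_comm := hM'c.is_comm.comm }
    infer_instance
  have hMM' : M ≤ Subgroup.normalizer ((⁅M, M⁆ : Subgroup X) : Set X) := by
    rw [← Subgroup.map_subtype_commutator]
    exact Subgroup.le_normalizer.trans (normalizer_le_normalizer_map inferInstance)
  have hder : ∀ x ∈ (⁅M, M⁆ : Subgroup X), ∀ j : ℕ, orderOf x = p ^ j → x = 1 := by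
    intro x hx j hj
    have hle : pPart p (⁅M, M⁆ : Subgroup X) ≤ M := (pPart_le _ _).trans (Subgroup.commutator_le.2
      fun a ha b hb => by
        rw [commutatorElement_def]
        exact mul_mem (mul_mem (mul_mem ha hb) (inv_mem ha)) (inv_mem hb))
    have := hOp _ hle isPGroup_pPart (hMM'.trans (normalizer_le_normalizer_pPart p _))
    exact Subgroup.mem_bot.1 (this ▸ mem_pPart hM'n hx hj)
  -- `A` has no `p`-elements
  have hAnp : ∀ a ∈ A, ∀ i : ℕ, orderOf a = p ^ i → a = 1 := by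
    intro a ha i hi
    have hcom : ∀ y ∈ Y ⊓ M, Commute a y := by
      intro y hy
      have hnA : Group.IsNilpotent (A.subgroupOf M) := by
        let _ : CommGroup (A.subgroupOf M) :=
          { (inferInstance : Group (A.subgroupOf M)) with mul_comm := hAM'.is_comm.comm }
        infer_instance
      have hnY : Group.IsNilpotent ((Y ⊓ M).subgroupOf M) := by
        let _ : CommGroup ((Y ⊓ M).subgroupOf M) :=
          { (inferInstance : Group ((Y ⊓ M).subgroupOf M)) with mul_comm := hYM'.is_comm.comm }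
        infer_instance
      have hperm := perm_pPart hnA hnY hfacM (r := p) 1
      rw [map_one, one_smul] at hperm
      have hP := hperm.isPGroup isPGroup_pPart isPGroup_pPart
      obtain ⟨j, hj⟩ := IsPGroup.iff_orderOf.1 hYp ⟨y, (Subgroup.mem_inf.1 hy).1⟩
      rw [Subgroup.orderOf_mk] at hj
      have h1 : (⟨a, hAM ha⟩ : M) ∈ pPart p (A.subgroupOf M) :=
        mem_pPart hnA ha (k := i) (by rw [Subgroup.orderOf_mk]; exact hi)
      have h2 : (⟨y, (Subgroup.mem_inf.1 hy).2⟩ : M) ∈ pPart p ((Y ⊓ M).subgroupOf M) :=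
        mem_pPart hnY hy (k := j) (by rw [Subgroup.orderOf_mk]; exact hj)
      have h3 : ⁅(⟨a, hAM ha⟩ : M), (⟨y, (Subgroup.mem_inf.1 hy).2⟩ : M)⁆ ∈
          pPart p (A.subgroupOf M) ⊔ pPart p ((Y ⊓ M).subgroupOf M) := by
        rw [commutatorElement_def]
        exact mul_mem (mul_mem (mul_mem (Subgroup.mem_sup_left h1) (Subgroup.mem_sup_right h2))
          (inv_mem (Subgroup.mem_sup_left h1))) (inv_mem (Subgroup.mem_sup_right h2))
      obtain ⟨l, hl⟩ := IsPGroup.iff_orderOf.1 hP ⟨_, h3⟩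
      rw [Subgroup.orderOf_mk, ← Subgroup.orderOf_coe] at hl
      exact commutatorElement_eq_one_iff_mul_comm.1
        (hder _ (Subgroup.commutator_mem_commutator (hAM ha) (Subgroup.mem_inf.1 hy).2) l hl)
    have hcM : ∀ m ∈ M, Commute m a := by
      intro m hm
      obtain ⟨x, hx, y, hy, rfl⟩ := prod_of_left_le h hAM m hm
      exact (show Commute x a from congrArg (Subtype.val : A → X)
        (IsMulCommutative.is_comm.comm (⟨x, hx⟩ : A) ⟨a, ha⟩)).mul_left (hcom y hy).symm
    have := hOp (Subgroup.zpowers a) (Subgroup.zpowers_le.2 (hAM ha))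
      (IsPGroup.of_card (by rw [Nat.card_zpowers, hi]))
      (fun m hm => Subgroup.centralizer_le_normalizer _
        (Subgroup.mem_centralizer_iff.2 fun t ht => by
          obtain ⟨j, rfl⟩ := Subgroup.mem_zpowers_iff.1 ht
          exact ((hcM m hm).zpow_right j).eq.symm))
    exact Subgroup.zpowers_eq_bot.1 this
  have hNY : N ≤ Y := by
    have hA' : ¬ p ∣ Nat.card A := by
      intro hd
      obtain ⟨a, ha⟩ := exists_prime_orderOf_dvd_card' p hd
      rw [← Subgroup.orderOf_coe] at ha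
      have h1 := hAnp _ a.2 1 (by rw [pow_one]; exact ha)
      rw [h1, orderOf_one] at ha
      exact hp.ne_one ha.symm
    refine Subgroup.relIndex_eq_one.1 (Nat.eq_one_of_dvd_coprimes
      (((Nat.Prime.coprime_iff_not_dvd hp).2 hA').pow_left k) ?_ ?_)
    · exact hk ▸ Subgroup.relIndex_dvd_card Y N
    · refine (H32.relIndex_dvd_index' Y N).trans ?_
      rw [index_eq_relIndex h]
      exact Subgroup.relIndex_dvd_card _ _
  have hYdec : ∀ y ∈ Y, ∃ n ∈ N, ∃ m ∈ Y ⊓ M, y = n * m := by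
    intro y hy
    obtain ⟨n, hn, m, hm, e⟩ := H19.exists_mul_of_sup_eq_top hsup y
    exact ⟨n, hn, m, Subgroup.mem_inf.2 ⟨(Y.mul_mem_cancel_left (hNY hn)).1 (e ▸ hy), hm⟩, e⟩
  have hY'N : ⁅Y, Y⁆ ≤ N := by
    refine Subgroup.commutator_le.2 fun a ha b hb => (QuotientGroup.eq_one_iff _).1 ?_
    obtain ⟨n1, hn1, m1, hm1, rfl⟩ := hYdec a ha
    obtain ⟨n2, hn2, m2, hm2, rfl⟩ := hYdec b hb
    change QuotientGroup.mk' N _ = 1
    have e1 : QuotientGroup.mk' N n1 = 1 := (QuotientGroup.eq_one_iff _).2 hn1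
    have e2 : QuotientGroup.mk' N n2 = 1 := (QuotientGroup.eq_one_iff _).2 hn2
    rw [map_commutatorElement, map_mul, map_mul, e1, e2, one_mul, one_mul,
      commutatorElement_eq_one_iff_mul_comm, ← map_mul, ← map_mul, hY0 m1 hm1 m2 hm2]
  obtain ⟨z, hz1, hz2⟩ := (⁅Y, Y⁆).bot_or_exists_ne_one.resolve_left hne
  have hAN : N ⊔ A = ⊤ := top_le_iff.1 ((hz z hz1 hz2).ge.trans
    (sup_le le_sup_right ((Subgroup.zpowers_le.2 (hY'N hz1)).trans le_sup_left)))
  refine hne (Subgroup.commutator_eq_bot_iff_le_centralizer.2 fun y hy =>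
    Subgroup.mem_centralizer_iff.2 fun y' hy' => ?_)
  have hsmall : ∀ x ∈ Y ⊓ M, x = 1 := by
    intro x hx
    rw [Subgroup.mem_inf] at hx
    obtain ⟨n, hn, a, ha, e⟩ := H19.exists_mul_of_sup_eq_top hAN x
    have hn1 : n = 1 := hNM n hn (by
      have : n = x * a⁻¹ := by rw [e, mul_inv_cancel_right]
      rw [this]
      exact M.mul_mem hx.2 (M.inv_mem (hAM ha)))
    obtain ⟨j, hj⟩ := IsPGroup.iff_orderOf.1 hYp ⟨x, hx.1⟩
    rw [Subgroup.orderOf_mk] at hj
    rw [e, hn1, one_mul] at hj ⊢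
    exact hAnp a ha j hj
  obtain ⟨n, hn, m, hm, rfl⟩ := hYdec y hy
  obtain ⟨n', hn', m', hm', rfl⟩ := hYdec y' hy'
  rw [hsmall m hm, hsmall m' hm', mul_one, mul_one]
  exact congrArg Subtype.val (hNc.is_comm.comm (⟨n', hn'⟩ : N) (⟨n, hn⟩ : N))

/-- A minimal configuration: some nontrivial `z` of `Y'` generates a proper subgroup with `A`. -/
theorem exists_proper_join {X : Type*} [Group X] [Finite X] [Group.IsSolvable X]
    {A Y : Subgroup X} [IsMulCommutative A] (hYn : Group.IsNilpotent Y)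
    (h : ∀ g : X, ∃ a ∈ A, ∃ y ∈ Y, g = a * y) (hne : ⁅Y, Y⁆ ≠ ⊥) (hA : A ≠ ⊤) :
    ∃ z ∈ ⁅Y, Y⁆, z ≠ 1 ∧ A ⊔ Subgroup.zpowers z ≠ ⊤ := by
  by_contra hno
  push Not at hno
  obtain ⟨M, hM, hAM⟩ := (eq_top_or_exists_le_coatom A).resolve_left hA
  set L := M.normalCore with hL
  set f := QuotientGroup.mk' L with hf
  have hsurj : Function.Surjective f := QuotientGroup.mk'_surjective L
  have hker : f.ker ≤ M := by rw [hf, QuotientGroup.ker_mk']; exact Subgroup.normalCore_le M
  have hcm : (M.map f).comap f = M := Subgroup.comap_map_eq_self hker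
  have hMb : IsCoatom (M.map f) := by
    refine ⟨fun h' => hM.1 (by rw [← hcm, h', Subgroup.comap_top]), fun Z hZ => ?_⟩
    have h1 := (Subgroup.comap_lt_comap_of_surjective hsurj).2 hZ
    rw [hcm] at h1
    rw [← Subgroup.map_comap_eq_self_of_surjective hsurj Z, hM.2 _ h1,
      Subgroup.map_top_of_surjective _ hsurj]
  have hcore : ∀ Z : Subgroup (X ⧸ L), Z.Normal → Z ≤ M.map f → Z = ⊥ := by
    intro Z hZ hle
    haveI : (Z.comap f).Normal := hZ.comap f
    have h1 : Z.comap f ≤ L :=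
      Subgroup.normal_le_normalCore.2 ((Subgroup.comap_mono hle).trans hcm.le)
    rw [← Subgroup.map_comap_eq_self_of_surjective hsurj Z, eq_bot_iff]
    exact (Subgroup.map_mono h1).trans (QuotientGroup.map_mk'_self L).le
  haveI : IsMulCommutative (A.map f) := ⟨⟨by
    rintro ⟨_, a, ha, rfl⟩ ⟨_, b, hb, rfl⟩
    refine Subtype.ext ?_
    change f a * f b = f b * f a
    rw [← map_mul, ← map_mul]
    exact congrArg f (congrArg (Subtype.val : A → X)
      (IsMulCommutative.is_comm.comm (⟨a, ha⟩ : A) ⟨b, hb⟩))⟩⟩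
  have hmapc : ⁅Y.map f, Y.map f⁆ = (⁅Y, Y⁆).map f := (Subgroup.map_commutator _ _ f).symm
  haveI := hYn
  refine false_of_corefree_maximal (A := A.map f) (Y := Y.map f) (M := M.map f)
    (Group.nilpotent_of_surjective _ (f.subgroupMap_surjective Y)) (prod_map h f hsurj) hMb
    (Subgroup.map_mono hAM) hcore ?_ ?_
  · rw [hmapc]
    rintro _ ⟨z, hz, rfl⟩ hz1
    have h1 := hno z hz (fun e => hz1 (by rw [e, map_one]))
    rw [← MonoidHom.map_zpowers, ← Subgroup.map_sup, h1, Subgroup.map_top_of_surjective f hsurj]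
  · rw [hmapc]
    intro e
    refine hne (eq_bot_iff.2 fun z hz => Subgroup.mem_bot.2 (by_contra fun h1 => ?_))
    rw [Subgroup.map_eq_bot_iff] at e
    exact hM.1 (top_le_iff.1 ((hno z hz h1).ge.trans
      (sup_le hAM (Subgroup.zpowers_le.2 (hker (e hz))))))

/-- A metabelian normal subgroup meeting `B'` nontrivially. -/
theorem exists_metabelian_normal {G : Type*} [Group G] [Finite G] (A B : Subgroup G)
    [IsMulCommutative A] (hBn : Group.IsNilpotent B)
    (hcen : ∀ z ∈ ⁅B, B⁆, ∀ b ∈ B, b * z = z * b)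
    (h : ∀ g : G, ∃ a ∈ A, ∃ b ∈ B, g = a * b) (hne : ⁅B, B⁆ ≠ ⊥) :
    ∃ M : Subgroup G, M.Normal ∧ derivedSeries M 2 = ⊥ ∧ ∃ y ∈ ⁅B, B⁆, y ∈ M ∧ y ≠ 1 := by
  have hAnil : Group.IsNilpotent A := by
    let _ : CommGroup A :=
      { (inferInstance : Group A) with mul_comm := IsMulCommutative.is_comm.comm }
    infer_instance
  haveI := isSolvable_of_prod_nilpotent A B hAnil hBn h
  haveI := hBn
  obtain ⟨y0, hy0, hy01⟩ := (⁅B, B⁆).bot_or_exists_ne_one.resolve_left hne
  obtain ⟨H, hHmem, hmin⟩ := (wellFounded_lt (α := Subgroup G)).has_min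
    {H : Subgroup G | A ≤ H ∧ ∃ y ∈ ⁅B, B⁆, y ∈ H ∧ y ≠ 1}
    ⟨⊤, le_top, y0, hy0, Subgroup.mem_top _, hy01⟩
  obtain ⟨hAH, y, hy, hyH, hy1⟩ := hHmem
  have hcomm : ⁅B, B⁆ ≤ B := Subgroup.commutator_le.2 fun a ha b hb => by
    rw [commutatorElement_def]
    exact mul_mem (mul_mem (mul_mem ha hb) (inv_mem ha)) (inv_mem hb)
  have hfac : ∀ g : H, ∃ a ∈ A.subgroupOf H, ∃ b ∈ (B ⊓ H).subgroupOf H, g = a * b :=
    prod_subgroupOf fun g hg => by
      obtain ⟨a, ha, b, hb, e⟩ := prod_of_left_le h hAH g hg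
      exact ⟨a, ⟨ha, hAH ha⟩, b, ⟨hb, (Subgroup.mem_inf.1 hb).2⟩, e⟩
  haveI : IsMulCommutative (A.subgroupOf H) := ⟨⟨fun a b => Subtype.ext (Subtype.ext
    (congrArg (Subtype.val : A → G) (IsMulCommutative.is_comm.comm
      (⟨a.1.1, a.2⟩ : A) ⟨b.1.1, b.2⟩)))⟩⟩
  have hmeta : derivedSeries H 2 = ⊥ := by
    by_cases hab : ⁅(B ⊓ H).subgroupOf H, (B ⊓ H).subgroupOf H⁆ = ⊥
    · haveI : IsMulCommutative ((B ⊓ H).subgroupOf H) := ⟨⟨fun a b => Subtype.ext
        (commutatorElement_eq_one_iff_mul_comm.1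
          (Subgroup.mem_bot.1 (hab.le (Subgroup.commutator_mem_commutator a.2 b.2))))⟩⟩
      exact derivedSeries_two_eq_bot (isMulCommutative_commutator_of_prod hfac)
    by_cases hA : A.subgroupOf H = ⊤
    · refine derivedSeries_two_eq_bot ⟨⟨fun a b => Subtype.ext ?_⟩⟩
      exact congrArg (Subtype.val : A.subgroupOf H → H) (IsMulCommutative.is_comm.comm
        (⟨a.1, hA ▸ Subgroup.mem_top _⟩ : A.subgroupOf H) ⟨b.1, hA ▸ Subgroup.mem_top _⟩)
    exfalso
    have hYn : Group.IsNilpotent ((B ⊓ H).subgroupOf H) :=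
      Group.nilpotent_of_mulEquiv ((Subgroup.subgroupOfEquivOfLe
        (inf_le_left : B ⊓ H ≤ B)).trans (Subgroup.subgroupOfEquivOfLe inf_le_right).symm)
    obtain ⟨z, hz, hz1, hz2⟩ := exists_proper_join hYn hfac hab hA
    have hzB : (z : G) ∈ ⁅B, B⁆ := by
      have h1 := Subgroup.mem_map_of_mem H.subtype hz
      rw [Subgroup.map_commutator, Subgroup.map_subgroupOf_eq_of_le inf_le_right] at h1
      exact Subgroup.commutator_mono inf_le_left inf_le_left h1
    refine hmin (A ⊔ Subgroup.zpowers (z : G)) ⟨le_sup_left, z, hzB,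
      Subgroup.mem_sup_right (Subgroup.mem_zpowers _), fun e => hz1 (Subtype.ext e)⟩
      (lt_of_le_of_ne (sup_le hAH (Subgroup.zpowers_le.2 z.2)) fun e => hz2 ?_)
    refine Subgroup.map_injective H.subtype_injective ?_
    rw [Subgroup.map_sup, Subgroup.map_subgroupOf_eq_of_le hAH, MonoidHom.map_zpowers,
      ← MonoidHom.range_eq_map, Subgroup.range_subtype]
    exact e
  have hle : Subgroup.normalClosure ({y} : Set G) ≤ H := by
    rw [Subgroup.normalClosure, Subgroup.closure_le]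
    intro c hc
    rw [Group.mem_conjugatesOfSet_iff] at hc
    obtain ⟨x, hx, hc⟩ := hc
    rw [Set.mem_singleton_iff] at hx
    subst hx
    obtain ⟨g, rfl⟩ := isConj_iff.1 hc
    obtain ⟨a, ha, b, hb, rfl⟩ := h g
    rw [show a * b * x * (a * b)⁻¹ = a * (b * x * b⁻¹) * a⁻¹ by group, hcen x hy b hb,
      mul_inv_cancel_right]
    exact H.mul_mem (H.mul_mem (hAH ha) hyH) (H.inv_mem (hAH ha))
  refine ⟨Subgroup.normalClosure {y}, Subgroup.normalClosure_normal, ?_, y, hy,
    Subgroup.subset_normalClosure rfl, hy1⟩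
  have h1 := map_derivedSeries_le_derivedSeries (f := Subgroup.inclusion hle) 2
  rw [hmeta, le_bot_iff] at h1
  exact (Subgroup.map_eq_bot_iff_of_injective _ (Subgroup.inclusion_injective hle)).1 h1

/-- The derived length of a product of an abelian group and a group of class two. -/
theorem derivedSeries_prod_eq_bot {G : Type u} [Group G] [Finite G] (A B : Subgroup G)
    [IsMulCommutative A] (hB : commutator ↥B ≤ Subgroup.center ↥B)
    (h : ∀ g : G, ∃ a ∈ A, ∃ b ∈ B, g = a * b) :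
    derivedSeries G (2 * (1 + (Nat.card ↥(commutator ↥B)).primeFactorsList.length)) = ⊥ := by
  induction hn : Nat.card (commutator ↥B) using Nat.strong_induction_on generalizing G with
  | _ n ih =>
  rw [← hn]
  by_cases hne : ⁅B, B⁆ = ⊥
  · haveI : IsMulCommutative B := ⟨⟨fun a b => Subtype.ext
      (commutatorElement_eq_one_iff_mul_comm.1
        (Subgroup.mem_bot.1 (hne.le (Subgroup.commutator_mem_commutator a.2 b.2))))⟩⟩
    refine eq_bot_iff.2 ((derivedSeries_antitone G (show 2 ≤ 2 * (1 + _) by omega)).trans ?_)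
    exact (derivedSeries_two_eq_bot (isMulCommutative_commutator_of_prod h)).le
  have hBn : Group.IsNilpotent B := by
    let _ : CommGroup (B ⧸ commutator ↥B) :=
      inferInstanceAs (CommGroup (Abelianization B))
    refine Subgroup.isNilpotent_of_ker_le_center (QuotientGroup.mk' (commutator ↥B)) ?_
    rw [QuotientGroup.ker_mk']
    exact hB
  have hcen : ∀ z ∈ ⁅B, B⁆, ∀ b ∈ B, b * z = z * b := by
    intro z hz b hb
    rw [← Subgroup.map_subtype_commutator] at hz
    obtain ⟨z', hz', rfl⟩ := hz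
    exact congrArg Subtype.val (Subgroup.mem_center_iff.1 (hB hz') ⟨b, hb⟩)
  obtain ⟨M, hMn, hM2, y, hy, hyM, hy1⟩ := exists_metabelian_normal A B hBn hcen h hne
  haveI := hMn
  set f := QuotientGroup.mk' M with hf
  have hsurj : Function.Surjective f := QuotientGroup.mk'_surjective M
  haveI : IsMulCommutative (A.map f) := ⟨⟨by
    rintro ⟨_, a, ha, rfl⟩ ⟨_, b, hb, rfl⟩
    refine Subtype.ext ?_
    change f a * f b = f b * f a
    rw [← map_mul, ← map_mul]
    exact congrArg f (congrArg (Subtype.val : A → G)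
      (IsMulCommutative.is_comm.comm (⟨a, ha⟩ : A) ⟨b, hb⟩))⟩⟩
  set g := f.subgroupMap B with hg
  have hgs : Function.Surjective g := f.subgroupMap_surjective B
  have hmapc : (commutator ↥B).map g = commutator ↥(B.map f) := by
    rw [commutator_def, commutator_def, Subgroup.map_commutator,
      Subgroup.map_top_of_surjective g hgs]
  have hB' : commutator ↥(B.map f) ≤ Subgroup.center ↥(B.map f) := by
    rw [← hmapc]
    rintro _ ⟨x, hx, rfl⟩
    rw [Subgroup.mem_center_iff]
    intro t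
    obtain ⟨s, rfl⟩ := hgs t
    rw [← map_mul, ← map_mul, Subgroup.mem_center_iff.1 (hB hx) s]
  -- the order of the derived subgroup drops
  obtain ⟨k, hk, hk1⟩ : ∃ k, Nat.card (commutator ↥B) = k * Nat.card (commutator ↥(B.map f)) ∧
      1 < k := by
    refine ⟨Nat.card (g.ker ⊓ commutator ↥B : Subgroup B), ?_, ?_⟩
    · rw [← hmapc, ← Subgroup.relIndex_ker, ← Subgroup.inf_relIndex_right g.ker (commutator ↥B),
        H32.card_mul_relIndex inf_le_right]
    · refine (Subgroup.one_lt_card_iff_ne_bot _).2 fun e => hy1 ?_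
      rw [← Subgroup.map_subtype_commutator] at hy
      obtain ⟨y', hy', rfl⟩ := hy
      have h1 : y' ∈ g.ker ⊓ commutator ↥B := Subgroup.mem_inf.2
        ⟨Subtype.ext ((QuotientGroup.eq_one_iff _).2 hyM), hy'⟩
      rw [e, Subgroup.mem_bot] at h1
      rw [h1, map_one]
  have hlt : Nat.card (commutator ↥(B.map f)) < n := by
    rw [← hn, hk]; exact lt_mul_of_one_lt_left Nat.card_pos hk1
  have hd := ih _ hlt (A.map f) (B.map f) hB' (prod_map h f hsurj) rfl
  have hlen : (Nat.card (commutator ↥(B.map f))).primeFactorsList.length + 1 ≤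
      (Nat.card (commutator ↥B)).primeFactorsList.length := by
    rw [hk, (Nat.perm_primeFactorsList_mul (by omega) Nat.card_pos.ne').length_eq,
      List.length_append, add_comm]
    refine Nat.add_le_add_right (List.length_pos_iff.2 fun e => ?_) _
    rw [Nat.primeFactorsList_eq_nil] at e
    omega
  set d := 2 * (1 + (Nat.card (commutator ↥(B.map f))).primeFactorsList.length) with hd'
  have hle : derivedSeries G d ≤ M := by
    rw [← map_derivedSeries_eq hsurj, Subgroup.map_eq_bot_iff, hf, QuotientGroup.ker_mk'] at hd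
    exact hd
  refine eq_bot_iff.2 ((derivedSeries_antitone G (show d + 2 ≤ 2 * (1 + (Nat.card (commutator ↥B)).primeFactorsList.length) by omega)).trans ?_)
  refine (derivedSeries_add_le hle 2).trans ?_
  rw [hM2, Subgroup.map_bot]

end Cfsg.Agent.H33
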