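import Cfsg.Agent.H33.Basic

/-! Wielandt's lemma on normalisers of subgroups generated by normal pieces of the factors. -/

open scoped Pointwise

namespace Cfsg.Agent.H33

variable {G : Type*} [Group G]

/-- If `S` is generated by subgroups normalised by `A` resp. `B`, then in a finite group the
normaliser of `S` factorises. -/
theorem normalizer_prod [Finite G] {A B A1 B1 : Subgroup G}
    (h : ∀ g : G, ∃ a ∈ A, ∃ b ∈ B, g = a * b)
    (hA : A ≤ Subgroup.normalizer (A1 : Set G)) (hB : B ≤ Subgroup.normalizer (B1 : Set G)) :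
    ∀ g ∈ Subgroup.normalizer ((A1 ⊔ B1 : Subgroup G) : Set G),
      ∃ a ∈ A ⊓ Subgroup.normalizer ((A1 ⊔ B1 : Subgroup G) : Set G),
        ∃ b ∈ B ⊓ Subgroup.normalizer ((A1 ⊔ B1 : Subgroup G) : Set G), g = a * b := by
  intro g hg
  obtain ⟨a, ha, b, hb, rfl⟩ := h g
  set S : Subgroup G := A1 ⊔ B1
  have hS : ∀ n : G, n ∈ Subgroup.normalizer (S : Set G) → MulAut.conj n • S = S := by
    intro n hn
    ext x
    rw [H19.mem_conj_smul]
    exact ((Subgroup.mem_normalizer_iff''.1 hn) x).symm
  have e1 : MulAut.conj b • S = MulAut.conj a⁻¹ • S := by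
    have e := hS _ hg
    rw [H19.conj_mul_smul] at e
    conv_rhs => rw [← e]
    rw [← H19.conj_mul_smul, inv_mul_cancel, map_one, one_smul]
  have hconj : ∀ (n : G) (X : Subgroup G), n ∈ Subgroup.normalizer (X : Set G) →
      MulAut.conj n • X = X := by
    intro n X hn
    ext x
    rw [H19.mem_conj_smul]
    exact ((Subgroup.mem_normalizer_iff''.1 hn) x).symm
  have hle : S ≤ MulAut.conj b • S := by
    refine sup_le ?_ ?_
    · rw [e1, ← hconj _ _ (inv_mem (hA ha))]
      exact Subgroup.pointwise_smul_le_pointwise_smul_iff.2 le_sup_left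
    · rw [← hconj _ _ (hB hb)]
      exact Subgroup.pointwise_smul_le_pointwise_smul_iff.2 le_sup_right
  have heq : S = MulAut.conj b • S :=
    Subgroup.eq_of_le_of_card_ge hle (H19.card_conj_smul b S).le
  have hbN : b ∈ Subgroup.normalizer (S : Set G) := by
    rw [Subgroup.mem_normalizer_iff'']
    intro x
    conv_rhs => rw [← SetLike.mem_coe]
    simp only [SetLike.mem_coe]
    conv_lhs => rw [heq, H19.mem_conj_smul]
  refine ⟨a, ⟨ha, ?_⟩, b, ⟨hb, hbN⟩, rfl⟩
  have := mul_mem hg (inv_mem hbN)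
  simpa using this

end Cfsg.Agent.H33
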