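import Mathlib
import Cfsg.Prelude.Def_OddOrderLocal
import Cfsg.Agent.H33.SemiprimeFrattini
import Cfsg.Agent.H53.FixedPointFreePrime

/-! B&G 15.2 (b), (c): `C_Q(D)` and the chief factor `Q/C_Q(D)`. -/

set_option autoImplicit false

open scoped Pointwise commutatorElement

namespace Cfsg.Agent.H33

universe u
variable {G : Type u} [Group G] [Finite G]

/-- A `q`-complement of the normal subgroup `S` normalised by the `q'`-group `K`. -/
theorem exists_invariant_qComplement {S K : Subgroup G} [hSn : S.Normal]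
    (hs : Group.IsSolvable G) {q : ℕ} (hqK : ¬ q ∣ Nat.card K) :
    ∃ D : Subgroup G, Cfsg.IsPiHallOf {r | r ≠ q} D S ∧
      K ≤ Subgroup.normalizer (D : Set G) := by
  obtain ⟨W, hW, hKW⟩ := exists_hallOf_ge (π := {r | r ≠ q})
    (M := (⊤ : Subgroup G)) (solvable_of_solvable_injective
      (f := (⊤ : Subgroup G).subtype) (⊤ : Subgroup G).subtype_injective)
    (le_top : K ≤ ⊤) fun r _ hd e => hqK (e ▸ hd)
  refine ⟨W ⊓ S, ⟨inf_le_right, fun r hr hd => hW.2.1 r hr
    (hd.trans (Subgroup.card_dvd_of_le inf_le_left)), fun r hr hrq hd => ?_⟩, fun k hk => ?_⟩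
  · rw [← Subgroup.inf_relIndex_right] at hd
    simp only [inf_assoc, inf_idem] at hd
    refine hW.2.2 r hr hrq ?_
    rw [Subgroup.relIndex_top_right]
    have h1 : S.relIndex (W ⊔ S) = S.relIndex W := Subgroup.relIndex_sup_right W S
    have h2 := Subgroup.relIndex_mul_relIndex ⊥ W (W ⊔ S) bot_le le_sup_left
    have h3 := Subgroup.relIndex_mul_relIndex ⊥ S (W ⊔ S) bot_le le_sup_right
    have h4 := Subgroup.relIndex_mul_relIndex ⊥ (W ⊓ S) W bot_le inf_le_left
    have h5 := Subgroup.relIndex_mul_relIndex ⊥ (W ⊓ S) S bot_le inf_le_right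
    simp only [Subgroup.relIndex_bot_left] at h2 h3 h4 h5
    have h6 : (W ⊓ S).relIndex W = S.relIndex W := Subgroup.inf_relIndex_left W S
    have h7 : (W ⊓ S).relIndex S = W.relIndex (W ⊔ S) := by
      refine Nat.eq_of_mul_eq_mul_left (Nat.card_pos (α := W)) ?_
      rw [h2, ← h3, h1, ← h4, ← h5, h6]
      ring
    exact hd.trans (h7 ▸ (Subgroup.relIndex_mul_index (le_sup_left : W ≤ W ⊔ S)) ▸
      dvd_mul_right _ _)
  · refine H19.mem_normalizer_of_conj_smul_eq ?_
    rw [Subgroup.smul_inf, H19.conj_smul_of_mem (hKW hk),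
      H19.conj_smul_eq_of_mem_normalizer
        (Subgroup.normalizer_eq_top_iff.mpr hSn ▸ Subgroup.mem_top k)]

/-- For a semiprime action of the prime-order `K` on the non-nilpotent `S = Q D`:
`Q₀ = C_Q(D)` is normal, contains `Φ(Q)`, and `Q/Q₀` is a chief factor of order `q^|K|`. -/
theorem semiprime_sylow_structure {S Q K C : Subgroup G} [hSn : S.Normal] [hQn : Q.Normal]
    (hG' : Group.IsSolvable G) {q : ℕ} [Fact q.Prime] (hQp : IsPGroup q Q) (hQS : Q ≤ S)
    (hQc : ¬ q ∣ Q.relIndex S) (hSQ : Group.IsNilpotent ↥(S.map (QuotientGroup.mk' Q)))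
    (hnil : ¬ Group.IsNilpotent S) (hC : Nat.card C = q) (hCQ : C ≤ Q) (hK : (Nat.card K).Prime)
    (hKS : K ⊔ S = ⊤) (hcop : (Nat.card K).Coprime (Nat.card S))
    (hfix : S ⊓ Subgroup.centralizer (K : Set G) = C) (hodd : Odd (Nat.card S))
    {D' : Subgroup G} (hD' : Cfsg.IsPiHallOf {r | r ≠ q} D' S) :
    Group.IsNilpotent D' ∧
    (Q ⊓ Subgroup.centralizer (D' : Set G)).Normal ∧ Q ⊓ Subgroup.centralizer (D' : Set G) < Q ∧
      Nat.card Q = Nat.card ↥(Q ⊓ Subgroup.centralizer (D' : Set G)) * q ^ Nat.card K ∧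
      (∀ a ∈ Q, ∀ b ∈ Q, a ^ q ∈ Q ⊓ Subgroup.centralizer (D' : Set G) ∧
        a * b * a⁻¹ * b⁻¹ ∈ Q ⊓ Subgroup.centralizer (D' : Set G)) ∧
      ∀ N : Subgroup G, Q ⊓ Subgroup.centralizer (D' : Set G) < N → N < Q → ¬ N.Normal := by
  have hq : q.Prime := Fact.out
  set p := Nat.card K with hp
  haveI : Fact p.Prime := ⟨hK⟩
  have hqS : q ∣ Nat.card S := hC ▸ Subgroup.card_dvd_of_le (hCQ.trans hQS)
  have hqK : ¬ q ∣ p := fun hd => hq.ne_one (Nat.eq_one_of_dvd_coprimes hcop hd hqS)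
  obtain ⟨D, hD, hKD⟩ := exists_invariant_qComplement (S := S) (K := K) hG' hqK
  have hDS : D ≤ S := hD.1
  have hqD : ¬ q ∣ Nat.card D := fun hd => hD.2.1 q hq hd rfl
  have hsupQD : Q ⊔ D = S := by
    refine le_antisymm (sup_le hQS hDS) (Subgroup.relIndex_eq_one.1 ?_)
    by_contra hne
    obtain ⟨r, hr, hrd⟩ := Nat.exists_prime_and_dvd hne
    by_cases hrq : r = q
    · subst hrq
      exact hQc (hrd.trans (Subgroup.relIndex_dvd_of_le_left S le_sup_left))
    · exact hD.2.2 r hr hrq (hrd.trans (Subgroup.relIndex_dvd_of_le_left S le_sup_right))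
  obtain ⟨nQ, hnQ⟩ := IsPGroup.iff_card.1 hQp
  have hcopDQ : (Nat.card D).Coprime (Nat.card Q) :=
    hnQ ▸ (((Nat.Prime.coprime_iff_not_dvd hq).2 hqD).symm.pow_right nQ)
  have hdisj : Q ⊓ D = ⊥ := by
    rw [← Subgroup.card_eq_one]
    exact Nat.eq_one_of_dvd_coprimes hcopDQ (Subgroup.card_dvd_of_le inf_le_right)
      (Subgroup.card_dvd_of_le inf_le_left)
  have hDnil : Group.IsNilpotent D := by
    have hinj : Function.Injective ((QuotientGroup.mk' Q).subgroupMap D) := by
      rw [← MonoidHom.ker_eq_bot_iff, eq_bot_iff]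
      intro x hx
      have h2 : (x : G) ∈ Q ⊓ D := Subgroup.mem_inf.2
        ⟨(QuotientGroup.eq_one_iff _).1 (congrArg Subtype.val (MonoidHom.mem_ker.1 hx)), x.2⟩
      rw [hdisj, Subgroup.mem_bot] at h2
      exact Subgroup.mem_bot.2 (Subtype.ext h2)
    haveI := hSQ
    haveI : Group.IsNilpotent ↥(D.map (QuotientGroup.mk' Q)) :=
      Group.nilpotent_of_mulEquiv (Subgroup.subgroupOfEquivOfLe (Subgroup.map_mono hDS))
    exact Group.nilpotent_of_mulEquiv
      (MulEquiv.ofBijective _ ⟨hinj, (QuotientGroup.mk' Q).subgroupMap_surjective D⟩).symm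
  have hnotcent : ¬ D ≤ Subgroup.centralizer (Q : Set G) := by
    intro hDQ
    refine hnil ?_
    haveI : (Q.subgroupOf S).Normal := inferInstance
    haveI : (D.subgroupOf S).Normal := Subgroup.normal_subgroupOf_of_le_normalizer (hsupQD ▸
      sup_le ((le_centralizer_comm hDQ).trans (Subgroup.centralizer_le_normalizer _))
        Subgroup.le_normalizer)
    have h2 := H55.isNilpotent_sup (N₁ := Q.subgroupOf S) (N₂ := D.subgroupOf S)
      ((Group.isNilpotent_congr (Subgroup.subgroupOfEquivOfLe hQS)).2 hQp.isNilpotent)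
      ((Group.isNilpotent_congr (Subgroup.subgroupOfEquivOfLe hDS)).2 hDnil)
    rw [← Subgroup.subgroupOf_sup hQS hDS, hsupQD, Subgroup.subgroupOf_self] at h2
    exact (Group.isNilpotent_congr Subgroup.topEquiv).1 h2
  -- `[K, D] = D`
  have hpD : ¬ p ∣ Nat.card D := fun hd =>
    hK.ne_one (Nat.eq_one_of_dvd_coprimes hcop dvd_rfl (hd.trans (Subgroup.card_dvd_of_le hDS)))
  have hKDD : ⁅K, D⁆ = D := by
    have h1 := H20.commutator_sup_centralizer hKD ((Nat.Prime.coprime_iff_not_dvd hK).2 hpD)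
      (Or.inr (by haveI := hG'; infer_instance))
    have h2 : D ⊓ Subgroup.centralizer (K : Set G) = ⊥ := le_bot_iff.1 (hdisj ▸
      le_inf ((inf_le_inf_right _ hDS).trans (hfix.le.trans hCQ)) inf_le_left)
    rwa [h2, sup_bot_eq, Subgroup.commutator_comm] at h1
  -- `Φ(Q)`
  set Φ := (frattini Q).map Q.subtype with hΦ
  haveI hΦn : Φ.Normal := by rw [hΦ]; infer_instance
  have hΦQ : Φ ≤ Q := Subgroup.map_subtype_le _
  have hfixQ : Q ⊓ Subgroup.centralizer (K : Set G) ≤ C := hfix ▸ inf_le_inf_right _ hQS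
  have hcopKQ : (Nat.card K).Coprime (Nat.card Q) :=
    hcop.coprime_dvd_right (Subgroup.card_dvd_of_le hQS)
  have hDodd : Odd (Nat.card D) := hodd.of_dvd_nat (Subgroup.card_dvd_of_le hDS)
  have hpq : q ≠ p := fun e => hqK (e ▸ dvd_rfl)
  have hCΦ : ¬ C ≤ Φ := by
    intro hle
    set π := QuotientGroup.mk' Φ with hπ
    haveI : (Q.map π).Normal := Subgroup.Normal.map hQn π (QuotientGroup.mk'_surjective Φ)
    have hinj : Nat.card (K.map π) = p := by
      refine Nat.card_congr (MulEquiv.ofBijective _ ⟨?_, π.subgroupMap_surjective K⟩).symm.toEquiv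
      rw [← MonoidHom.ker_eq_bot_iff, eq_bot_iff]
      intro x hx
      refine Subgroup.mem_bot.2 (orderOf_eq_one_iff.1 (Nat.eq_one_of_dvd_coprimes hcopKQ
        (orderOf_dvd_natCard x) ?_))
      rw [← Subgroup.orderOf_coe]
      exact Subgroup.orderOf_dvd_natCard Q
        (hΦQ ((QuotientGroup.eq_one_iff _).1 (congrArg Subtype.val (MonoidHom.mem_ker.1 hx))))
    have h1 := H53.commutator_le_centralizer_pGroup_of_no_fixed (ℓ := q) (r := p) hK hpq
      (X := K.map π) (K := D.map π) (P := Q.map π) (hQp.map π) hinj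
      (fun hd => hpD (hd.trans (Subgroup.card_map_dvd D π)))
      (fun hd => hqD (hd.trans (Subgroup.card_map_dvd D π)))
      (hDodd.of_dvd_nat (Subgroup.card_map_dvd D π))
      ((Subgroup.map_mono hKD).trans (Subgroup.le_normalizer_map π)) (by
        rw [eq_bot_iff]
        refine (fixed_map_le hcopKQ (H20.isSolvable_of_isPGroup hQp) hΦQ).trans
          ((Subgroup.map_mono (hfixQ.trans hle)).trans ?_)
        rw [QuotientGroup.map_mk'_self])
    rw [← Subgroup.map_commutator, hKDD] at h1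
    refine hnotcent (H20.le_centralizer_of_trivial_on_frattini
      (Subgroup.normalizer_eq_top_iff.mpr hQn ▸ le_top)
      (hcopDQ.coprime_dvd_right (Subgroup.card_subgroup_dvd_card _)) fun a ha k hk => ?_)
    refine (QuotientGroup.eq_one_iff (N := Φ) (a * k * a⁻¹ * k⁻¹)).1 ?_
    show π (a * k * a⁻¹ * k⁻¹) = 1
    have h2 : π a * π k = π k * π a := (Subgroup.mem_centralizer_iff.1
      (h1 (Subgroup.mem_map_of_mem π ha)) (π k) (Subgroup.mem_map_of_mem π hk)).symm
    rw [map_mul, map_mul, map_mul, map_inv, map_inv, h2, mul_inv_cancel_right, mul_inv_cancel]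
  -- `D` centralises `Φ(Q)`
  have hΦD : Φ ≤ Subgroup.centralizer (D : Set G) := by
    refine le_centralizer_comm ?_
    conv_lhs => rw [← hKDD]
    refine H53.commutator_le_centralizer_pGroup_of_no_fixed (ℓ := q) (r := p) hK hpq
      (hQp.to_le hΦQ) rfl hpD hqD hDodd hKD ?_
    rw [← Subgroup.card_eq_one]
    have h1 : Φ ⊓ Subgroup.centralizer (K : Set G) ≤ C :=
      (inf_le_inf_right _ hΦQ).trans hfixQ
    rcases (Nat.dvd_prime hq).1 (hC ▸ Subgroup.card_dvd_of_le h1) with e | e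
    · exact e
    · exact absurd ((Subgroup.eq_of_le_of_card_ge h1 (by rw [hC, e])).ge.trans inf_le_left) hCΦ
  set Q₀ := Q ⊓ Subgroup.centralizer (D : Set G) with hQ₀
  have hΦ0 : Φ ≤ Q₀ := le_inf hΦQ hΦD
  have hQ0Q : Q₀ ≤ Q := inf_le_left
  have hpc : ∀ a ∈ Q, ∀ b ∈ Q, a ^ q ∈ Q₀ ∧ a * b * a⁻¹ * b⁻¹ ∈ Q₀ := fun a ha b hb =>
    ⟨hΦ0 ⟨⟨a, ha⟩ ^ q, H24.pow_mem_frattini hQp _, rfl⟩,
      hΦ0 ⟨⁅(⟨a, ha⟩ : Q), ⟨b, hb⟩⁆, H24.commutator_le_frattini hQp
        (Subgroup.commutator_mem_commutator (Subgroup.mem_top _) (Subgroup.mem_top _)), rfl⟩⟩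
  haveI hQ0n : Q₀.Normal := by
    rw [← Subgroup.normalizer_eq_top_iff, eq_top_iff, ← hKS, ← hsupQD]
    have hpres : ∀ g ∈ Subgroup.normalizer (D : Set G), g ∈ Subgroup.normalizer (Q₀ : Set G) := by
      intro g hg
      refine H19.mem_normalizer_of_conj_smul_eq ?_
      rw [hQ₀, Subgroup.smul_inf, H19.conj_smul_eq_of_mem_normalizer
        (normalizer_le_normalizer_centralizer hg), H19.conj_smul_eq_of_mem_normalizer
        (Subgroup.normalizer_eq_top_iff.mpr hQn ▸ Subgroup.mem_top g)]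
    refine sup_le (fun k hk => hpres k (hKD hk)) (sup_le ?_ fun d hd => hpres d
      (Subgroup.le_normalizer hd))
    intro a ha
    rw [Subgroup.mem_normalizer_iff]
    have hconj : ∀ a ∈ Q, ∀ x ∈ Q₀, a * x * a⁻¹ ∈ Q₀ := by
      intro a ha x hx
      have h := Q₀.mul_mem (hpc a ha x (hQ0Q hx)).2 hx
      simpa [mul_assoc] using h
    exact fun x => ⟨hconj a ha x, fun h => by
      simpa [mul_assoc] using hconj a⁻¹ (inv_mem ha) _ h⟩
  have hlt : Q₀ < Q := lt_of_le_of_ne hQ0Q fun e =>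
    hnotcent (le_centralizer_comm (e ▸ (inf_le_right : Q₀ ≤ _)))
  -- every normal subgroup between `Q₀` and `Q`
  set π := QuotientGroup.mk' Q₀ with hπ
  set Fd := D ⊔ K with hFd
  haveI : (D.subgroupOf Fd).Normal :=
    Subgroup.normal_subgroupOf_of_le_normalizer (sup_le Subgroup.le_normalizer hKD)
  haveI : Group.IsSolvable (D.subgroupOf Fd) := by haveI := hG'; infer_instance
  have hkey : ∀ N : Subgroup G, N.Normal → Q₀ < N → N ≤ Q →
      Nat.card N = Nat.card Q₀ * q ^ p := by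
    intro N hN hlo hhi
    set V := N.map π with hV
    haveI hVn : V.Normal := Subgroup.Normal.map hN π (QuotientGroup.mk'_surjective Q₀)
    let φ : Fd →* MulAut V :=
      (MulAut.conjNormal : G ⧸ Q₀ →* MulAut V).comp (π.comp Fd.subtype)
    have hφ : ∀ (f : Fd) (v : V), ((φ f v : V) : G ⧸ Q₀) = π f * v * (π f)⁻¹ := fun f v =>
      MulAut.conjNormal_apply (π f) v
    have hfix' : ∀ (A : Subgroup G), A ≤ Fd → (Nat.card A).Coprime (Nat.card Q) →
        (H53.fixedSubgroup φ (A.subgroupOf Fd)).map V.subtype ≤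
          (Q ⊓ Subgroup.centralizer (A : Set G)).map π := by
      intro A hA hAc
      rintro _ ⟨v, hv, rfl⟩
      refine fixed_map_le hAc (H20.isSolvable_of_isPGroup hQp) hQ0Q
        (Subgroup.mem_inf.2 ⟨Subgroup.map_mono hhi v.2, Subgroup.mem_centralizer_iff.2 ?_⟩)
      rintro _ ⟨a, ha, rfl⟩
      have h2 := congrArg Subtype.val (hv ⟨a, hA ha⟩ ha)
      rw [hφ] at h2
      exact mul_inv_eq_iff_eq_mul.1 h2
    have hfixD : H53.fixedSubgroup φ (D.subgroupOf Fd) = ⊥ := by
      rw [← Subgroup.map_eq_bot_iff_of_injective _ V.subtype_injective, eq_bot_iff]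
      refine (hfix' D le_sup_left hcopDQ).trans ?_
      rw [hπ, QuotientGroup.map_mk'_self]
    have hfixK : Nat.card (H53.fixedSubgroup φ (K.subgroupOf Fd)) ∣ q := by
      have := (Subgroup.card_dvd_of_le ((hfix' K le_sup_right hcopKQ).trans
        (Subgroup.map_mono hfixQ))).trans (Subgroup.card_map_dvd C π)
      rwa [Subgroup.card_map_of_injective V.subtype_injective, hC] at this
    have hfpf : ∀ r ∈ K.subgroupOf Fd, r ≠ 1 → ∀ x ∈ D.subgroupOf Fd, r * x = x * r → x = 1 := by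
      intro r hr hr1 x hx hc
      have hgen : Subgroup.zpowers (r : G) = K := by
        refine Subgroup.eq_of_le_of_card_ge (Subgroup.zpowers_le.2 hr) ?_
        rw [Nat.card_zpowers]
        rcases (Nat.dvd_prime hK).1 (Subgroup.orderOf_dvd_natCard K hr) with e | e
        · exact absurd (Subtype.ext (orderOf_eq_one_iff.1 e)) hr1
        · exact e.ge
      have h1 : (x : G) ∈ S ⊓ Subgroup.centralizer (K : Set G) := by
        refine Subgroup.mem_inf.2 ⟨hDS hx, ?_⟩
        rw [← hgen, centralizer_zpowers]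
        exact Subgroup.mem_centralizer_singleton_iff.2 (congrArg Subtype.val hc).symm
      rw [hfix] at h1
      have h2 : (x : G) ∈ Q ⊓ D := Subgroup.mem_inf.2 ⟨hCQ h1, hx⟩
      rw [hdisj, Subgroup.mem_bot] at h2
      exact Subtype.ext h2
    have hVnil : Group.IsNilpotent V := ((hQp.to_le hhi).map π).isNilpotent
    have hcopV : (Nat.card Fd).Coprime (Nat.card V) := by
      refine Nat.Coprime.coprime_dvd_right ((Subgroup.card_map_dvd N π).trans
        (Subgroup.card_dvd_of_le hhi)) (hnQ ▸ (((Nat.Prime.coprime_iff_not_dvd hq).2 ?_).symm.pow_right nQ))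
      intro hd
      haveI : (D.subgroupOf Fd).Normal := inferInstance
      have h0 := H55.card_sup_dvd_mul (K.subgroupOf Fd) (D.subgroupOf Fd)
      rw [← Subgroup.subgroupOf_sup le_sup_right le_sup_left, sup_comm, Subgroup.subgroupOf_self,
        Subgroup.card_top, Nat.card_congr (Subgroup.subgroupOfEquivOfLe (le_sup_right : K ≤ Fd)).toEquiv,
        Nat.card_congr (Subgroup.subgroupOfEquivOfLe (le_sup_left : D ≤ Fd)).toEquiv, mul_comm] at h0
      have h1 := hd.trans h0
      rcases hq.dvd_mul.1 h1 with h | h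
      · exact hqD h
      · exact hqK h
    have h1 := (H53.card_eq_fixed_pow (F := Fd) V φ (D.subgroupOf Fd) (K.subgroupOf Fd) hVnil
      hfpf hcopV hfixD).1
    rw [Nat.card_congr (Subgroup.subgroupOfEquivOfLe (le_sup_right : K ≤ Fd)).toEquiv] at h1
    have hcardN : Nat.card N = Nat.card Q₀ * Nat.card V := by
      rw [hV, ← Subgroup.relIndex_ker, hπ, QuotientGroup.ker_mk', ← Subgroup.relIndex_bot_left N,
        ← Subgroup.relIndex_mul_relIndex ⊥ Q₀ N bot_le hlo.le, Subgroup.relIndex_bot_left]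
    rcases (Nat.dvd_prime hq).1 hfixK with e | e
    · rw [e, one_pow] at h1
      rw [h1, mul_one] at hcardN
      exact absurd (Subgroup.eq_of_le_of_card_ge hlo.le hcardN.le) hlo.ne
    · rw [hcardN, h1, e]
  -- pass to `D'`
  obtain ⟨s, hs, hsD⟩ := hallOf_conj (M := S) (by haveI := hG'; infer_instance) hD hD'
  have e0 : Q ⊓ Subgroup.centralizer (D' : Set G) = Q₀ := by
    rw [← hsD]
    have h1 : Subgroup.centralizer (↑(MulAut.conj s • D) : Set G) =
        MulAut.conj s • Subgroup.centralizer (D : Set G) := by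
      ext y
      rw [H19.mem_conj_smul, Subgroup.mem_centralizer_iff, Subgroup.mem_centralizer_iff]
      constructor
      · intro h z hz
        have := h (s * z * s⁻¹) (H19.mem_conj_smul.2 (by simpa [mul_assoc] using hz))
        calc z * (s⁻¹ * y * s) = s⁻¹ * (s * z * s⁻¹ * y) * s := by group
          _ = s⁻¹ * y * s * z := by rw [this]; group
      · intro h z hz
        have := h _ (H19.mem_conj_smul.1 hz)
        calc z * y = s * (s⁻¹ * z * s * (s⁻¹ * y * s)) * s⁻¹ := by group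
          _ = y * z := by rw [this]; group
    conv_lhs => rw [h1, ← H19.conj_smul_eq_of_mem_normalizer (H := Q) (g := s)
      (Subgroup.normalizer_eq_top_iff.mpr hQn ▸ Subgroup.mem_top s)]
    rw [← Subgroup.smul_inf]
    exact H19.conj_smul_eq_of_mem_normalizer
      (Subgroup.normalizer_eq_top_iff.mpr hQ0n ▸ Subgroup.mem_top s)
  have hD'nil : Group.IsNilpotent D' := by
    rw [← hsD]
    exact (Group.isNilpotent_congr (D.equivMapOfInjective _ (MulAut.conj s).injective)).1 hDnil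
  rw [e0]
  exact ⟨hD'nil, hQ0n, hlt, hkey Q hQn hlt le_rfl, hpc, fun N hlo hhi hN =>
    hhi.ne (Subgroup.eq_of_le_of_card_ge hhi.le
      ((hkey Q hQn hlt le_rfl).trans (hkey N hN hlo hhi.le).symm).le)⟩

end Cfsg.Agent.H33
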