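import Mathlib
import Cfsg.Prelude.Def_OddOrderLocal
import Cfsg.Agent.H33.FittingCore
import Cfsg.Agent.H33.SemiprimeSylow

/-! B&G 15.2 (the listed S1437): the structure of `M` when `M_F ≠ M_σ`. -/

set_option autoImplicit false

open scoped Pointwise commutatorElement

namespace Cfsg.Agent.H33

universe u
variable {G : Type u} [Group G] [Finite G]

omit [Finite G] in
theorem subgroupOf_inf_centralizer {M S V : Subgroup G} (hV : V ≤ M) :
    (S ⊓ Subgroup.centralizer (V : Set G)).subgroupOf M =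
      S.subgroupOf M ⊓ Subgroup.centralizer ((V.subgroupOf M : Subgroup M) : Set M) := by
  ext x
  simp only [Subgroup.mem_inf, Subgroup.mem_subgroupOf, Subgroup.mem_centralizer_iff,
    SetLike.mem_coe]
  exact and_congr_right fun _ => ⟨fun h v hv => Subtype.ext (h v hv),
    fun h v hv => congrArg Subtype.val (h ⟨v, hV hv⟩ hv)⟩

/-- B&G 15.2: the listed S1437. -/
theorem fitting_hall_ne_sigma_core_structure (hG : Cfsg.IsMinSimpleOddOrder G) (H : LocalInputs G)
    {M : Subgroup G} (hM : IsCoatom M) {K U : Subgroup G} (hKU : Cfsg.IsSigmaDecomposition M K U)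
    (hne : Cfsg.fittingHallOf M ≠ Cfsg.sigmaCore M) :
    U = ⊥ ∧ Cfsg.sigmaCore M = ⁅M, M⁆ ∧ (Nat.card K).Prime ∧
      (Nat.card ↥(kStar M K)).Prime ∧
      Nat.card ↥(kStar M K) ∣ Nat.card (Cfsg.fittingHallOf M) ∧
      Nat.card ↥(kStar M K) ∈ Cfsg.beta M ∧
      ∃ Q : Subgroup G, Q ≤ Cfsg.fittingHallOf M ∧ M ≤ Subgroup.normalizer (Q : Set G) ∧
        IsPGroup (Nat.card ↥(kStar M K)) Q ∧
        ¬ Nat.card ↥(kStar M K) ∣ Q.relIndex (Cfsg.sigmaCore M) ∧
        ∀ D : Subgroup G, Cfsg.IsComplIn Q D (Cfsg.sigmaCore M) →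
          Group.IsNilpotent D ∧
          M ≤ Subgroup.normalizer ((Q ⊓ Subgroup.centralizer (D : Set G) : Subgroup G) : Set G) ∧
          Q ⊓ Subgroup.centralizer (D : Set G) < Q ∧
          Nat.card Q = Nat.card ↥(Q ⊓ Subgroup.centralizer (D : Set G)) *
            Nat.card ↥(kStar M K) ^ Nat.card K ∧
          (∀ a ∈ Q, ∀ b ∈ Q,
            a ^ Nat.card ↥(kStar M K) ∈ Q ⊓ Subgroup.centralizer (D : Set G) ∧
            a * b * a⁻¹ * b⁻¹ ∈ Q ⊓ Subgroup.centralizer (D : Set G)) ∧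
          ∀ N : Subgroup G, Q ⊓ Subgroup.centralizer (D : Set G) < N → N < Q →
            ¬ M ≤ Subgroup.normalizer (N : Set G) := by
  have hnil : ¬ Group.IsNilpotent (Cfsg.sigmaCore M) := fun h =>
    hne (fittingHallOf_eq_of_nilpotent hG hM h)
  obtain ⟨-, hKc, -, hKp, hq, hder, Q, hQn, hQF, hQp, hKQ, hQc, -, hSQ, -⟩ :=
    nonnilpotent_core hG H hM hnil hKU.hall
  refine ⟨(fitting_hall_ne_sigma_core hG H hM hKU hne).1, hder.symm, hKp, hq,
    Subgroup.card_dvd_of_le (hKQ.trans hQF), star_mem_beta hG H hM hnil hKU.hall, Q, hQF,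
    (Subgroup.normal_subgroupOf_iff_le_normalizer
      (hQF.trans (Subgroup.map_subtype_le _))).1 hQn, hQp, hQc, fun D hD => ?_⟩
  set S := Cfsg.sigmaCore M
  set q := Nat.card ↥(kStar M K) with hqdef
  haveI : Fact q.Prime := ⟨hq⟩
  have hQS : Q ≤ S := hQF.trans (H54.fittingHallOf_le_sigmaCore hG hM)
  have hSM : S ≤ M := sigmaCore_le hG M
  have hQM : Q ≤ M := hQS.trans hSM
  have hDM : D ≤ M := hD.2.1.trans hSM
  have hKM : K ≤ M := hKU.hall.1
  have hcard : ∀ {V : Subgroup G}, V ≤ M → Nat.card (V.subgroupOf M) = Nat.card V :=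
    fun hV => Nat.card_congr (Subgroup.subgroupOfEquivOfLe hV).toEquiv
  haveI : (S.subgroupOf M).Normal :=
    Subgroup.normal_subgroupOf_of_le_normalizer (le_normalizer_sigmaCore hG hM)
  haveI := hQn
  obtain ⟨n, hn⟩ := IsPGroup.iff_card.1 hQp
  have hDc : Nat.card D = Q.relIndex S := (H54.relIndex_of_compl hD).symm
  have hDr : D.relIndex S = Nat.card Q := by
    have h := Subgroup.relIndex_mul_relIndex ⊥ D S bot_le hD.2.1
    rw [Subgroup.relIndex_bot_left, Subgroup.relIndex_bot_left, ← H54.card_mul_of_compl hD,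
      mul_comm (Nat.card Q)] at h
    exact Nat.eq_of_mul_eq_mul_left Nat.card_pos h
  have hD₀ : Cfsg.IsPiHallOf {r | r ≠ q} (D.subgroupOf M) (S.subgroupOf M) := by
    refine ⟨Subgroup.comap_mono hD.2.1, fun r hr hd (e : r = q) => hQc ?_, fun r hr hrq hd => hrq ?_⟩
    · rwa [← hDc, ← hcard hDM, ← e]
    · rw [Subgroup.relIndex_subgroupOf hSM, hDr, hn] at hd
      exact (Nat.prime_dvd_prime_iff_eq hr hq).1 (hr.dvd_of_dvd_pow hd)
  have hfix := subgroupOf_inf_centralizer (S := S) hKM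
  obtain ⟨hnilD, hn0, hlt, hc, hpc, hchief⟩ := semiprime_sylow_structure
    (S := S.subgroupOf M) (Q := Q.subgroupOf M) (K := K.subgroupOf M)
    (C := (kStar M K).subgroupOf M) (maximal_solvable hG hM)
    (hQp.of_equiv (Subgroup.subgroupOfEquivOfLe hQM).symm) (Subgroup.comap_mono hQS)
    (by rw [Subgroup.relIndex_subgroupOf hSM]; exact hQc) hSQ
    (fun h => hnil ((Group.isNilpotent_congr (Subgroup.subgroupOfEquivOfLe hSM)).1 h))
    (hcard (inf_le_left.trans hSM)) (Subgroup.comap_mono hKQ)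
    (by rw [hcard hKM]; exact hKp)
    (by
      rw [← Subgroup.subgroupOf_sup hKM hSM, Subgroup.subgroupOf_eq_top]
      intro m hm
      obtain ⟨k, hk, s, hs, rfl⟩ := hKc.2.2.2 m hm
      exact mul_mem (Subgroup.mem_sup_left hk) (Subgroup.mem_sup_right hs))
    (by rw [hcard hKM, hcard hSM]; exact card_coprime_complement hG hM hKc)
    hfix.symm (by rw [hcard hSM]; exact H55.MinSimple.odd_subgroup hG S) hD₀
  set Q₀ := Q ⊓ Subgroup.centralizer (D : Set G) with hQ₀
  have hQ₀M : Q₀ ≤ M := inf_le_left.trans hQM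
  rw [← subgroupOf_inf_centralizer hDM, ← hQ₀] at hn0 hlt hc hpc hchief
  refine ⟨(Group.isNilpotent_congr (Subgroup.subgroupOfEquivOfLe hDM)).1 hnilD,
    (Subgroup.normal_subgroupOf_iff_le_normalizer hQ₀M).1 hn0,
    lt_of_le_of_ne inf_le_left fun e => hlt.ne (by rw [e]),
    by rwa [hcard hQM, hcard hQ₀M, hcard hKM] at hc,
    fun a ha b hb => hpc ⟨a, hQM ha⟩ ha ⟨b, hQM hb⟩ hb, fun N hlo hhi hnN => ?_⟩
  refine hchief (N.subgroupOf M) ?_ ?_ (Subgroup.normal_subgroupOf_of_le_normalizer hnN)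
  · refine lt_of_le_of_ne (Subgroup.comap_mono hlo.le) fun e => hlo.ne ?_
    have := congrArg (Subgroup.map M.subtype) e
    rwa [Subgroup.map_subgroupOf_eq_of_le hQ₀M,
      Subgroup.map_subgroupOf_eq_of_le (hhi.le.trans hQM)] at this
  · refine lt_of_le_of_ne (Subgroup.comap_mono hhi.le) fun e => hhi.ne ?_
    have := congrArg (Subgroup.map M.subtype) e
    rwa [Subgroup.map_subgroupOf_eq_of_le (hhi.le.trans hQM),
      Subgroup.map_subgroupOf_eq_of_le hQM] at this

end Cfsg.Agent.H33
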