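import Cfsg.Agent.H21.FrobeniusBasic
import Mathlib.GroupTheory.GroupAction.Quotient

/-! A group acting with at most one fixed point per nontrivial element. -/

open scoped Pointwise

namespace Cfsg.Agent.H33

/-- If every nontrivial element fixes at most one point and the degree is `≡ 1` modulo the order,
there is a common fixed point. -/
theorem exists_fixed_of_unique_fixed {L X : Type*} [Group L] [Finite L] [MulAction L X] [Finite X]
    [Nonempty X]
    (huniq : ∀ l : L, l ≠ 1 → ∀ x y : X, l • x = x → l • y = y → x = y)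
    (hmod : Nat.card X ≡ 1 [MOD Nat.card L]) : ∃ x : X, ∀ l : L, l • x = x := by
  classical
  have := Fintype.ofFinite X
  have := Fintype.ofFinite L
  by_cases hfree : ∀ x : X, MulAction.stabilizer L x = ⊥
  · have hdvd : Nat.card L ∣ Nat.card X := by
      rw [Nat.card_congr (MulAction.selfEquivOrbitsQuotientProd hfree), Nat.card_prod]
      exact dvd_mul_left _ _
    have h1 : Nat.card L = 1 := Nat.eq_one_of_dvd_one ((Nat.ModEq.dvd_iff hmod dvd_rfl).1 hdvd)
    obtain ⟨x⟩ := ‹Nonempty X›
    refine ⟨x, fun l => ?_⟩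
    have := (Nat.card_eq_one_iff_unique.1 h1).1
    rw [Subsingleton.elim l 1, one_smul]
  push Not at hfree
  obtain ⟨x₀, hx₀⟩ := hfree
  set A : X → Set L := fun x => {l : L | l ≠ 1 ∧ ∃ y ∈ MulAction.orbit L x, l • y = y} with hA
  -- the nontrivial elements with a fixed point in one orbit
  have hcount : ∀ x : X, Nat.card (A x) + Nat.card (MulAction.orbit L x) = Nat.card L := by
    intro x
    let e : (Σ y : MulAction.orbit L x, {l : L // l • (y : X) = y ∧ l ≠ 1}) → A x :=
      fun z => ⟨z.2.1, z.2.2.2, z.1, z.1.2, z.2.2.1⟩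
    have he : Function.Bijective e := by
      constructor
      · rintro ⟨y, l, hl, hl1⟩ ⟨y', l', hl', hl'1⟩ h
        obtain rfl : l = l' := congrArg Subtype.val h
        obtain rfl : y = y' := Subtype.ext (huniq l hl1 _ _ hl hl')
        rfl
      · rintro ⟨l, hl1, y, hy, hl⟩
        exact ⟨⟨⟨y, hy⟩, l, hl, hl1⟩, rfl⟩
    rw [← Nat.card_congr (Equiv.ofBijective e he), Nat.card_sigma]
    have hs : ∀ y : MulAction.orbit L x,
        Nat.card {l : L // l • (y : X) = y ∧ l ≠ 1} + 1 = Nat.card (MulAction.stabilizer L (x : X)) := by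
      intro y
      have h1 : Nat.card (MulAction.stabilizer L (x : X)) = Nat.card (MulAction.stabilizer L (y : X)) := by
        have hx := MulAction.card_orbit_mul_card_stabilizer_eq_card_group L x
        have hy := MulAction.card_orbit_mul_card_stabilizer_eq_card_group L (y : X)
        simp only [← Nat.card_eq_fintype_card] at hx hy
        rw [MulAction.orbit_eq_iff.2 y.2] at hy
        have : Nonempty (MulAction.orbit L x) := ⟨y⟩
        exact Nat.eq_of_mul_eq_mul_left Nat.card_pos (hx.trans hy.symm)
      rw [h1, Nat.card_eq_fintype_card, Nat.card_eq_fintype_card, Fintype.card_subtype,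
        Fintype.card_subtype (α := L)]
      rw [← Finset.card_erase_add_one (s := Finset.univ.filter (· ∈ MulAction.stabilizer L (y : X)))
        (a := 1) (by simp)]
      congr 2
      ext l
      simp [MulAction.mem_stabilizer_iff, and_comm]
    have hx := MulAction.card_orbit_mul_card_stabilizer_eq_card_group L x
    simp only [← Nat.card_eq_fintype_card] at hx
    rw [← hx, Nat.card_eq_fintype_card (α := MulAction.orbit L x)]
    conv_lhs => arg 2; rw [← mul_one (Fintype.card _)]
    rw [← smul_eq_mul, ← Finset.card_univ, ← Finset.sum_const, ← Finset.sum_add_distrib,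
      Finset.sum_congr rfl (fun y _ => hs y), Finset.sum_const, Finset.card_univ, smul_eq_mul]
  have hsmall : ∀ x : X, MulAction.stabilizer L x ≠ ⊥ →
      2 * Nat.card (MulAction.orbit L x) ≤ Nat.card L := by
    intro x hx
    have h1 := (Subgroup.one_lt_card_iff_ne_bot _).2 hx
    have h2 := MulAction.card_orbit_mul_card_stabilizer_eq_card_group L x
    simp only [← Nat.card_eq_fintype_card] at h2
    rw [← h2, mul_comm]
    exact Nat.mul_le_mul_left _ h1
  have hall : ∀ l : L, l ≠ 1 → ∀ y : X, l • y = y → y ∈ MulAction.orbit L x₀ := by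
    intro l hl y hy
    by_contra hno
    have hy0 : MulAction.stabilizer L y ≠ ⊥ := fun h => hl (by
      have : l ∈ MulAction.stabilizer L y := hy
      rwa [h, Subgroup.mem_bot] at this)
    have hdisj : Disjoint (A x₀) (A y) := by
      rw [Set.disjoint_left]
      rintro m ⟨hm1, z, hz, hmz⟩ ⟨-, z', hz', hmz'⟩
      obtain rfl := huniq m hm1 z z' hmz hmz'
      exact hno (MulAction.orbit_eq_iff.1 (((MulAction.orbit_eq_iff.2 hz').symm).trans
        (MulAction.orbit_eq_iff.2 hz)))
    have h1 : Nat.card (A x₀) + Nat.card (A y) ≤ Nat.card L - 1 := by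
      rw [Nat.card_coe_set_eq, Nat.card_coe_set_eq, ← Set.ncard_union_eq hdisj]
      have hsub : A x₀ ∪ A y ⊆ Set.univ \ {1} := by
        rintro m (hm | hm) <;> exact ⟨trivial, hm.1⟩
      refine (Set.ncard_le_ncard hsub).trans ?_
      rw [Set.ncard_sdiff_singleton_of_mem (Set.mem_univ _), Set.ncard_univ]
    have := hcount x₀; have := hcount y; have := hsmall x₀ hx₀; have := hsmall y hy0
    have : 0 < Nat.card L := Nat.card_pos
    omega
  -- the orbit of `x₀` carries all fixed points; the other orbits are regular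
  have hdvd : Nat.card L ∣ Nat.card X - Nat.card (MulAction.orbit L x₀) := by
    let S : SubMulAction L X :=
      { carrier := {y | y ∉ MulAction.orbit L x₀}
        smul_mem' := fun g y hy h => hy (by
          have := MulAction.mem_orbit_of_mem_orbit g⁻¹ h
          rwa [inv_smul_smul] at this) }
    have hfree' : ∀ y : S, MulAction.stabilizer L y = ⊥ := by
      intro y
      refine (Subgroup.eq_bot_iff_forall _).2 fun l hl => ?_
      by_contra hl1
      exact y.2 (hall l hl1 y (congrArg Subtype.val hl))
    have hS : Nat.card S = Nat.card X - Nat.card (MulAction.orbit L x₀) := by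
      have h := Set.ncard_add_ncard_compl (MulAction.orbit L x₀)
      rw [← Nat.card_coe_set_eq, ← Nat.card_coe_set_eq] at h
      have : Nat.card S = Nat.card ((MulAction.orbit L x₀)ᶜ : Set X) := rfl
      omega
    rw [← hS, Nat.card_congr (MulAction.selfEquivOrbitsQuotientProd hfree'), Nat.card_prod]
    exact dvd_mul_left _ _
  have hle : Nat.card (MulAction.orbit L x₀) ≤ Nat.card X := by
    rw [Nat.card_coe_set_eq, ← Set.ncard_univ]; exact Set.ncard_le_ncard (Set.subset_univ _)
  have h3 : Nat.card (MulAction.orbit L x₀) ≡ 1 [MOD Nat.card L] :=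
    ((Nat.modEq_iff_dvd' hle).2 hdvd).trans hmod
  have h4 := hsmall x₀ hx₀
  have h5 : 0 < Nat.card (MulAction.orbit L x₀) := by
    have : Nonempty (MulAction.orbit L x₀) := ⟨⟨x₀, MulAction.mem_orbit_self x₀⟩⟩
    exact Nat.card_pos
  have h6 : Nat.card (MulAction.orbit L x₀) = 1 :=
    h3.eq_of_lt_of_lt (by omega) (by omega)
  refine ⟨x₀, fun l => ?_⟩
  obtain ⟨hs, -⟩ := Nat.card_eq_one_iff_unique.1 h6
  exact congrArg Subtype.val
    (Subsingleton.elim (⟨l • x₀, MulAction.mem_orbit x₀ l⟩ : MulAction.orbit L x₀)
      ⟨x₀, MulAction.mem_orbit_self x₀⟩)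

end Cfsg.Agent.H33
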