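import Cfsg.Agent.H33.Basic
import Mathlib.GroupTheory.PGroup

/-! Kegel's lemma on subgroups permuting with all conjugates of another one. -/

open scoped Pointwise

namespace Cfsg.Agent.H33

variable {G : Type*} [Group G]

/-- `A B ⊆ B A`, elementwise (for finite subgroups: `A` and `B` permute). -/
def Perm (A B : Subgroup G) : Prop :=
  ∀ a ∈ A, ∀ b ∈ B, ∃ b' ∈ B, ∃ a' ∈ A, a * b = b' * a'

/-- A product set that is a subgroup gives permutability. -/
theorem perm_of_coe_eq {A B S : Subgroup G} (h : (S : Set G) = (A : Set G) * (B : Set G)) :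
    Perm A B := by
  intro a ha b hb
  have h1 : (a * b)⁻¹ ∈ (A : Set G) * (B : Set G) := by
    rw [← h]
    exact S.inv_mem (show a * b ∈ (S : Set G) from h ▸ Set.mul_mem_mul ha hb)
  obtain ⟨a', ha', b', hb', e⟩ := Set.mem_mul.1 h1
  exact ⟨b'⁻¹, B.inv_mem hb', a'⁻¹, A.inv_mem ha', by rw [← mul_inv_rev, e, inv_inv]⟩

/-- Permutability in the other order. -/
theorem Perm.swap {A B : Subgroup G} (h : Perm A B) : Perm B A := by
  intro b hb a ha
  obtain ⟨b', hb', a', ha', e⟩ := h a⁻¹ (A.inv_mem ha) b⁻¹ (B.inv_mem hb)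
  exact ⟨a'⁻¹, A.inv_mem ha', b'⁻¹, B.inv_mem hb', by
    rw [← inv_inj, mul_inv_rev, mul_inv_rev, inv_inv, inv_inv]; exact e⟩

/-- The join of permuting subgroups is their product. -/
theorem Perm.exists_mul {A B : Subgroup G} (h : Perm A B) :
    ∀ s ∈ A ⊔ B, ∃ a ∈ A, ∃ b ∈ B, s = a * b := by
  intro s hs
  rw [← Subgroup.closure_eq A, ← Subgroup.closure_eq B, ← Subgroup.closure_union] at hs
  induction hs using Subgroup.closure_induction_left with
  | one => exact ⟨1, A.one_mem, 1, B.one_mem, (one_mul 1).symm⟩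
  | mul_left x hx y _ ih =>
    obtain ⟨a, ha, b, hb, rfl⟩ := ih
    rcases hx with hx | hx
    · exact ⟨x * a, A.mul_mem hx ha, b, hb, by group⟩
    · obtain ⟨a', ha', b', hb', e⟩ := h.swap x hx a ha
      exact ⟨a', ha', b' * b, B.mul_mem hb' hb, by rw [← mul_assoc, e, mul_assoc]⟩
  | inv_mul_cancel x hx y _ ih =>
    obtain ⟨a, ha, b, hb, rfl⟩ := ih
    rcases hx with hx | hx
    · exact ⟨x⁻¹ * a, A.mul_mem (A.inv_mem hx) ha, b, hb, by group⟩
    · obtain ⟨a', ha', b', hb', e⟩ := h.swap x⁻¹ (B.inv_mem hx) a ha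
      exact ⟨a', ha', b' * b, B.mul_mem hb' hb, by rw [← mul_assoc, e, mul_assoc]⟩

/-- The join of permuting subgroups as a product of sets. -/
theorem Perm.coe_sup {A B : Subgroup G} (h : Perm A B) :
    ((A ⊔ B : Subgroup G) : Set G) = (A : Set G) * (B : Set G) :=
  coe_eq_mul le_sup_left le_sup_right h.exists_mul

/-- Permutability is invariant under conjugation. -/
theorem Perm.conj {A B : Subgroup G} (h : Perm A B) (g : G) :
    Perm (MulAut.conj g • A) (MulAut.conj g • B) := by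
  intro a ha b hb
  rw [H19.mem_conj_smul] at ha hb
  obtain ⟨b', hb', a', ha', e⟩ := h _ ha _ hb
  refine ⟨g * b' * g⁻¹, H19.mem_conj_smul.2 (by simpa [mul_assoc] using hb'), g * a' * g⁻¹,
    H19.mem_conj_smul.2 (by simpa [mul_assoc] using ha'), ?_⟩
  calc a * b = g * ((g⁻¹ * a * g) * (g⁻¹ * b * g)) * g⁻¹ := by group
    _ = g * (b' * a') * g⁻¹ := by rw [e]
    _ = _ := by group

/-- A join of two subgroups permuting with `B` permutes with `B`. -/
theorem Perm.sup {A A' B : Subgroup G} (h : Perm A B) (h' : Perm A' B) : Perm (A ⊔ A') B := by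
  intro a ha
  rw [← Subgroup.closure_eq A, ← Subgroup.closure_eq A', ← Subgroup.closure_union] at ha
  have key : ∀ x ∈ (A : Set G) ∪ A', ∀ y, y ∈ A ⊔ A' →
      (∀ b ∈ B, ∃ b' ∈ B, ∃ a' ∈ A ⊔ A', y * b = b' * a') →
      ∀ b ∈ B, ∃ b' ∈ B, ∃ a' ∈ A ⊔ A', x * y * b = b' * a' := by
    intro x hx y _ hy b hb
    obtain ⟨b1, hb1, a1, ha1, e⟩ := hy b hb
    obtain ⟨b2, hb2, a2, ha2, e2⟩ : ∃ b2 ∈ B, ∃ a2 ∈ A ⊔ A', x * b1 = b2 * a2 := by
      rcases hx with hx | hx
      · obtain ⟨b2, hb2, a2, ha2, e2⟩ := h x hx b1 hb1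
        exact ⟨b2, hb2, a2, Subgroup.mem_sup_left ha2, e2⟩
      · obtain ⟨b2, hb2, a2, ha2, e2⟩ := h' x hx b1 hb1
        exact ⟨b2, hb2, a2, Subgroup.mem_sup_right ha2, e2⟩
    exact ⟨b2, hb2, a2 * a1, mul_mem ha2 ha1, by rw [mul_assoc, e, ← mul_assoc, e2, mul_assoc]⟩
  induction ha using Subgroup.closure_induction_left with
  | one => exact fun b hb => ⟨b, hb, 1, one_mem _, by simp⟩
  | mul_left x hx y hy ih =>
    exact key x hx y (by rwa [Subgroup.closure_union, Subgroup.closure_eq, Subgroup.closure_eq] at hy) ih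
  | inv_mul_cancel x hx y hy ih =>
    refine key x⁻¹ ?_ y (by rwa [Subgroup.closure_union, Subgroup.closure_eq, Subgroup.closure_eq] at hy) ih
    exact hx.imp (fun h => A.inv_mem h) fun h => A'.inv_mem h

/-- Two permuting `p`-groups generate a `p`-group. -/
theorem Perm.isPGroup [Finite G] {p : ℕ} [hp : Fact p.Prime] {A B : Subgroup G} (h : Perm A B)
    (hA : IsPGroup p A) (hB : IsPGroup p B) : IsPGroup p (A ⊔ B : Subgroup G) := by
  set S : Subgroup G := A ⊔ B with hS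
  have h1 := card_prod (prod_subgroupOf (A := A) (B := B) (M := S) fun g hg => by
    obtain ⟨a, ha, b, hb, e⟩ := h.exists_mul g hg
    exact ⟨a, ⟨ha, Subgroup.mem_sup_left ha⟩, b, ⟨hb, Subgroup.mem_sup_right hb⟩, e⟩)
  rw [Nat.card_congr (Subgroup.subgroupOfEquivOfLe (le_sup_left : A ≤ S)).toEquiv,
    Nat.card_congr (Subgroup.subgroupOfEquivOfLe (le_sup_right : B ≤ S)).toEquiv] at h1
  obtain ⟨i, hi⟩ := hA.exists_card_eq
  obtain ⟨j, hj⟩ := hB.exists_card_eq
  have hd : Nat.card S ∣ p ^ (i + j) := by rw [pow_add, ← hi, ← hj, h1]; exact dvd_mul_right _ _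
  obtain ⟨k, -, hk⟩ := (Nat.dvd_prime_pow hp.out).1 hd
  exact IsPGroup.of_card hk

/-- Kegel: enlarge a subgroup permuting with all conjugates of `B` to one that is normalised by
all conjugates of `B`, keeping a property inherited by such enlargements. -/
theorem exists_normalised_extension [Finite G] (A B : Subgroup G) (Q : Subgroup G → Prop)
    (hA : Q A) (hperm : ∀ y : G, Perm A (MulAut.conj y • B))
    (hstep : ∀ X X' : Subgroup G, Q X → (∀ y : G, Perm X (MulAut.conj y • B)) →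
      (∀ y : G, Perm X' (MulAut.conj y • B)) →
      (∃ x : G, X' ≤ X ⊔ MulAut.conj x • B) → Q X') :
    ∃ X : Subgroup G, A ≤ X ∧ Q X ∧ (∀ y : G, Perm X (MulAut.conj y • B)) ∧
      Subgroup.normalClosure (B : Set G) ≤ Subgroup.normalizer (X : Set G) := by
  obtain ⟨X, ⟨hAX, hQ, hX⟩, hmax⟩ := (wellFounded_gt (α := Subgroup G)).has_min
    {X | A ≤ X ∧ Q X ∧ ∀ y : G, Perm X (MulAut.conj y • B)} ⟨A, le_rfl, hA, hperm⟩
  refine ⟨X, hAX, hQ, hX, (Subgroup.closure_le _).2 ?_⟩
  intro b hb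
  obtain ⟨c, hc, hb⟩ := Group.mem_conjugatesOfSet_iff.1 hb
  obtain ⟨x, rfl⟩ := isConj_iff.1 hb
  set d := x * c * x⁻¹
  have hd : d ∈ MulAut.conj x • B := H19.mem_conj_smul.2 (by simpa [d, mul_assoc] using hc)
  set X' := X ⊔ MulAut.conj d • X
  have hX' : ∀ y : G, Perm X' (MulAut.conj y • B) := by
    intro y
    refine (hX y).sup ?_
    have := (hX (d⁻¹ * y)).conj d
    rwa [← H19.conj_mul_smul, mul_inv_cancel_left] at this
  have hle : X' ≤ X ⊔ MulAut.conj x • B := by
    refine sup_le le_sup_left fun z hz => ?_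
    rw [H19.mem_conj_smul] at hz
    have h1 : d ∈ X ⊔ MulAut.conj x • B := Subgroup.mem_sup_right hd
    have := mul_mem (mul_mem h1 (Subgroup.mem_sup_left (T := MulAut.conj x • B) hz)) (inv_mem h1)
    simpa [mul_assoc] using this
  have heq : X' = X := (eq_of_le_of_not_lt le_sup_left
    (hmax X' ⟨hAX.trans le_sup_left, hstep X X' hQ hX hX' ⟨x, hle⟩, hX'⟩)).symm
  have hconj : MulAut.conj d • X = X :=
    Subgroup.eq_of_le_of_card_ge (le_sup_right.trans heq.le) (H19.card_conj_smul d X).ge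
  show d ∈ Subgroup.normalizer (X : Set G)
  rw [Subgroup.mem_normalizer_iff'']
  intro z
  conv_lhs => rw [← hconj, H19.mem_conj_smul]

end Cfsg.Agent.H33
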