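import Cfsg.Agent.H33.Basic
import Cfsg.Agent.H33.Kegel
import Cfsg.Agent.H19.Hall

/-! Hall subgroups in a factorised solvable group permute. -/

open scoped Pointwise

namespace Cfsg.Agent.H33

variable {G : Type*} [Group G]

/-- Conjugates of subgroups normalised by the factors are simultaneously conjugate to them. -/
theorem exists_simul_conj_of_normalizer {H K A B : Subgroup G}
    (h : ∀ g : G, ∃ a ∈ H, ∃ b ∈ K, g = a * b) (hA : H ≤ Subgroup.normalizer (A : Set G))
    (hB : K ≤ Subgroup.normalizer (B : Set G)) (x y : G) :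
    ∃ g : G, MulAut.conj x • A = MulAut.conj g • A ∧ MulAut.conj y • B = MulAut.conj g • B := by
  have hfix : ∀ (X : Subgroup G) (c : G), c ∈ Subgroup.normalizer (X : Set G) →
      MulAut.conj c • X = X := by
    intro X c hc
    ext z
    rw [H19.mem_conj_smul]
    exact ((Subgroup.mem_normalizer_iff''.1 hc) z).symm
  obtain ⟨a, ha, b, hb, e⟩ := h (x⁻¹ * y)
  refine ⟨x * a, ?_, ?_⟩
  · rw [H19.conj_mul_smul, hfix A a (hA ha)]
  · have : y = x * a * b := by rw [mul_assoc, ← e]; group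
    rw [this, H19.conj_mul_smul (x * a) b, hfix B b (hB hb)]

/-- In a solvable group some conjugates of two Hall subgroups permute. -/
theorem exists_perm_conj_hall [Finite G] [Group.IsSolvable G] {A B : Subgroup G}
    (hA : (Nat.card A).Coprime A.index) (hB : (Nat.card B).Coprime B.index) :
    ∃ x y : G, Perm (MulAut.conj x • A) (MulAut.conj y • B) := by
  set a := Nat.card A with ha
  set b := Nat.card B with hb
  have hGa : Nat.card G = a * A.index := A.card_mul_index.symm
  have hGb : Nat.card G = b * B.index := B.card_mul_index.symm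
  obtain ⟨n, hn⟩ : Nat.lcm a b ∣ Nat.card G :=
    Nat.lcm_dvd (Dvd.intro _ hGa.symm) (Dvd.intro _ hGb.symm)
  have hna : n ∣ A.index := by
    obtain ⟨c, hc⟩ := Nat.dvd_lcm_left a b
    refine ⟨c, Nat.eq_of_mul_eq_mul_left (ha ▸ Nat.card_pos : 0 < a) ?_⟩
    rw [← hGa, hn, hc]; ring
  have hnb : n ∣ B.index := by
    obtain ⟨c, hc⟩ := Nat.dvd_lcm_right a b
    refine ⟨c, Nat.eq_of_mul_eq_mul_left (hb ▸ Nat.card_pos : 0 < b) ?_⟩
    rw [← hGb, hn, hc]; ring
  have hcop : (Nat.lcm a b).Coprime n :=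
    (Nat.Coprime.mul_left (hA.coprime_dvd_right hna) (hB.coprime_dvd_right hnb)).coprime_dvd_left
      (Nat.lcm_dvd_mul a b)
  obtain ⟨C, hC⟩ := H19.hall_exists hn hcop
  have hsub : ∀ X : Subgroup G, (Nat.card X).Coprime X.index → Nat.card X ∣ Nat.card C →
      ∃ x : G, MulAut.conj x • X ≤ C := by
    intro X hX hXC
    obtain ⟨k, hk⟩ := hXC
    have hk' : k ∣ X.index := by
      refine ⟨n, Nat.eq_of_mul_eq_mul_left (Nat.card_pos : 0 < Nat.card X) ?_⟩
      rw [X.card_mul_index, hn, ← hC, hk]; ring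
    obtain ⟨Y, hY⟩ := H19.hall_exists (G := C) hk (hX.coprime_dvd_right hk')
    obtain ⟨x, hx⟩ := H19.hall_conj X.card_mul_index.symm hX rfl
      ((Subgroup.card_map_of_injective (K := Y) C.subtype_injective).trans hY)
    exact ⟨x, hx ▸ Subgroup.map_subtype_le Y⟩
  obtain ⟨x, hx⟩ := hsub A hA (hC ▸ Nat.dvd_lcm_left a b)
  obtain ⟨y, hy⟩ := hsub B hB (hC ▸ Nat.dvd_lcm_right a b)
  refine ⟨x, y, perm_of_coe_eq (coe_eq_mul hx hy (exists_mul_of_card_le hx hy ?_))⟩
  rw [H19.card_conj_smul, H19.card_conj_smul, ← ha, ← hb, hC, ← Nat.gcd_mul_lcm a b,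
    mul_comm (Nat.gcd a b)]
  refine Nat.mul_le_mul_left _ (Nat.le_of_dvd (Nat.gcd_pos_of_pos_left _ (ha ▸ Nat.card_pos)) ?_)
  refine Nat.dvd_gcd ((Subgroup.card_dvd_of_le inf_le_left).trans ?_)
    ((Subgroup.card_dvd_of_le inf_le_right).trans ?_)
  · rw [H19.card_conj_smul]
  · rw [H19.card_conj_smul]

/-- Hall subgroups normal in the factors of a solvable product permute with all their conjugates. -/
theorem perm_conj_hall [Finite G] [Group.IsSolvable G] {H K A B : Subgroup G}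
    (h : ∀ g : G, ∃ a ∈ H, ∃ b ∈ K, g = a * b) (hAn : H ≤ Subgroup.normalizer (A : Set G))
    (hBn : K ≤ Subgroup.normalizer (B : Set G))
    (hA : (Nat.card A).Coprime A.index) (hB : (Nat.card B).Coprime B.index) (x y : G) :
    Perm (MulAut.conj x • A) (MulAut.conj y • B) := by
  obtain ⟨x₀, y₀, h0⟩ := exists_perm_conj_hall hA hB
  obtain ⟨g₀, e1, e2⟩ := exists_simul_conj_of_normalizer h hAn hBn x₀ y₀
  obtain ⟨g, f1, f2⟩ := exists_simul_conj_of_normalizer h hAn hBn x y
  rw [e1, e2] at h0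
  have := h0.conj (g * g₀⁻¹)
  rwa [← H19.conj_mul_smul, ← H19.conj_mul_smul, inv_mul_cancel_right, ← f1, ← f2] at this

end Cfsg.Agent.H33
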