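import Cfsg.Agent.H33.Kegel
import Cfsg.Agent.H33.Wielandt.Final

/-! The theorem of Kegel and Wielandt: products of two nilpotent groups are solvable. -/

open scoped Pointwise

namespace Cfsg.Agent.H33

universe u

/-- A Sylow subgroup is the product of the parts of the factors. -/
theorem perm_pPart {G : Type*} [Group G] [Finite G] {A B : Subgroup G} (hA : Group.IsNilpotent A)
    (hB : Group.IsNilpotent B) (h : ∀ g : G, ∃ a ∈ A, ∃ b ∈ B, g = a * b) {r : ℕ} [Fact r.Prime]
    (y : G) : Perm (pPart r A) (MulAut.conj y • pPart r B) := by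
  obtain ⟨R, hR⟩ := (isPGroup_pPart (p := r) (A := A)).exists_le_sylow
  obtain ⟨R', hR'⟩ := (isPGroup_pPart (p := r) (A := B)).exists_le_sylow
  obtain ⟨g, hg⟩ := MulAction.exists_smul_eq G R R'
  obtain ⟨b, hb, a, ha, e⟩ := prod_swap h g
  have hconj : ∀ (X : Subgroup G) (c : G), c ∈ Subgroup.normalizer (X : Set G) →
      MulAut.conj c • X = X := by
    intro X c hc
    ext x
    rw [H19.mem_conj_smul]
    exact ((Subgroup.mem_normalizer_iff''.1 hc) x).symm
  have hA' : pPart r A ≤ ((a • R : Sylow r G) : Subgroup G) := by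
    rw [← hconj _ a (le_normalizer_pPart r A ha), Sylow.coe_subgroup_smul]
    exact Subgroup.pointwise_smul_le_pointwise_smul_iff.2 hR
  have hB' : pPart r B ≤ ((a • R : Sylow r G) : Subgroup G) := by
    rw [show a • R = b⁻¹ • R' by rw [← hg, e, mul_smul, inv_smul_smul],
      ← hconj _ b⁻¹ (le_normalizer_pPart r B (inv_mem hb)), Sylow.coe_subgroup_smul]
    exact Subgroup.pointwise_smul_le_pointwise_smul_iff.2 hR'
  have hperm : Perm (pPart r A) (pPart r B) := perm_of_coe_eq (coe_eq_mul hA' hB'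
    (sylow_prod h (pPart_le r A) (pPart_le r B) (card_pPart hA) (card_pPart hB) _ hA' hB'))
  obtain ⟨a', ha', b', hb', rfl⟩ := h y
  rw [H19.conj_mul_smul, hconj _ b' (le_normalizer_pPart r B hb')]
  have := hperm.conj a'
  rwa [hconj _ a' (le_normalizer_pPart r A ha')] at this

/-- Kegel and Wielandt: a finite product of two nilpotent subgroups is solvable. -/
theorem isSolvable_of_prod_nilpotent {G : Type u} [Group G] [Finite G] (A B : Subgroup G)
    (hA : Group.IsNilpotent A) (hB : Group.IsNilpotent B)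
    (h : ∀ g : G, ∃ a ∈ A, ∃ b ∈ B, g = a * b) : Group.IsSolvable G := by
  induction hn : Nat.card G using Nat.strong_induction_on generalizing G with
  | _ n ih =>
  cases subsingleton_or_nontrivial G
  · infer_instance
  haveI := hA
  haveI := hB
  by_contra hns
  have hsub : ∀ M : Subgroup G, M ≠ ⊤ → (∀ g ∈ M, ∃ a ∈ A ⊓ M, ∃ b ∈ B ⊓ M, g = a * b) →
      Group.IsSolvable M := by
    intro M hM hf
    have hnil : ∀ X : Subgroup G, Group.IsNilpotent X → Group.IsNilpotent (X.subgroupOf M) := by
      intro X hX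
      haveI := hX
      rw [← Subgroup.inf_subgroupOf_right]
      exact Group.nilpotent_of_mulEquiv ((Subgroup.subgroupOfEquivOfLe
        (inf_le_left : X ⊓ M ≤ X)).trans (Subgroup.subgroupOfEquivOfLe (inf_le_right : X ⊓ M ≤ M)).symm)
    exact ih _ (hn ▸ H19.card_lt_of_ne_top M hM) (A.subgroupOf M) (B.subgroupOf M) (hnil A hA)
      (hnil B hB) (prod_subgroupOf hf) rfl
  have hquot : ∀ N : Subgroup G, [N.Normal] → N ≠ ⊥ → Group.IsSolvable (G ⧸ N) := by
    intro N _ hN
    have hnil : ∀ X : Subgroup G, Group.IsNilpotent X →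
        Group.IsNilpotent (X.map (QuotientGroup.mk' N)) := fun X hX =>
      haveI := hX
      Group.nilpotent_of_surjective _ (MonoidHom.subgroupMap_surjective (QuotientGroup.mk' N) X)
    exact ih _ (hn ▸ H19.card_quotient_lt N hN) _ _ (hnil A hA) (hnil B hB)
      (prod_map h _ (QuotientGroup.mk'_surjective _)) rfl
  have hnosolv : ∀ N : Subgroup G, N.Normal → Group.IsSolvable N → N = ⊥ := by
    intro N hN hs
    by_contra hne
    haveI := hN
    exact hns ((Group.isSolvable_iff_subgroup_quotient N).2 ⟨hs, hquot N hne⟩)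
  have hmeet : ∀ N C : Subgroup G, N.Normal → C.Normal → N ≠ ⊥ → C ≠ ⊥ → N ⊓ C ≠ ⊥ := by
    intro N C hN hC hN0 hC0 e
    haveI := hN
    haveI := hC
    haveI := hquot N hN0
    haveI := hquot C hC0
    refine hns (Group.isSolvable_of_isSolvable_injective
      (f := (QuotientGroup.mk' N).prod (QuotientGroup.mk' C)) ?_)
    rw [← MonoidHom.ker_eq_bot_iff, MonoidHom.ker_prod, QuotientGroup.ker_mk', QuotientGroup.ker_mk', e]
  by_cases hcop : (Nat.card A).Coprime (Nat.card B)
  · -- the coprime case: `G` is simple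
    have hsimple : IsSimpleGroup G := by
      refine ⟨fun N hN => or_iff_not_imp_left.2 fun hN0 => ?_⟩
      by_contra hN1
      haveI := hN
      have hcard : ∀ X Y : Subgroup G, (∀ g : G, ∃ x ∈ X, ∃ y ∈ Y, g = x * y) →
          (∀ M : Subgroup G, M ≠ ⊤ → (∀ g ∈ M, ∃ x ∈ X ⊓ M, ∃ y ∈ Y ⊓ M, g = x * y) →
            Group.IsSolvable M) → N.index ∣ Nat.card X := by
        intro X Y hXY hXYs
        have htop : X ⊔ N = ⊤ := by
          by_contra hne
          haveI := hXYs _ hne fun g hg => by
            obtain ⟨a, ha, b, hb, e⟩ := prod_of_left_le hXY (le_sup_left : X ≤ X ⊔ N) g hg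
            exact ⟨a, ⟨ha, Subgroup.mem_sup_left ha⟩, b, hb, e⟩
          exact hN0 (hnosolv N hN (Group.isSolvable_of_isSolvable_injective
            (f := Subgroup.inclusion (le_sup_right : N ≤ X ⊔ N)) (Subgroup.inclusion_injective _)))
        rw [← Subgroup.relIndex_top_right, ← htop, sup_comm, Subgroup.relIndex_sup_left]
        exact Subgroup.relIndex_dvd_card _ _
      refine hN1 (Subgroup.index_eq_one.1 (Nat.eq_one_of_dvd_coprimes hcop (hcard A B h hsub) ?_))
      refine hcard B A (prod_swap h) fun M hM hf => hsub M hM fun g hg => ?_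
      obtain ⟨b, hb, a, ha, e⟩ := hf g⁻¹ (M.inv_mem hg)
      exact ⟨a⁻¹, inv_mem ha, b⁻¹, inv_mem hb, by rw [← mul_inv_rev, ← e, inv_inv]⟩
    by_cases hp : (Nat.card G).Prime
    · haveI := Fact.mk hp
      haveI : IsCyclic G := isCyclic_of_prime_card rfl
      exact hns (Group.isSolvable_of_comm fun a b => IsMulCommutative.is_comm.comm a b)
    exact CoprimeSimpleProduct.false ⟨hsimple, hp, hA, hB, hcop, h, hsub⟩
  · -- a common prime `r`
    obtain ⟨r, hr, hrA, hrB⟩ := Nat.Prime.not_coprime_iff_dvd.1 hcop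
    haveI : Fact r.Prime := ⟨hr⟩
    have hne : ∀ X : Subgroup G, Group.IsNilpotent X → r ∣ Nat.card X → pPart r X ≠ ⊥ := by
      intro X hX hd e
      have := card_pPart (p := r) hX
      rw [e, Subgroup.card_bot] at this
      exact (Nat.one_lt_pow (hr.factorization_pos_of_dvd Nat.card_pos.ne' hd).ne' hr.one_lt).ne this
    obtain ⟨X, hAX, hXr, -, hXN⟩ := exists_normalised_extension (pPart r A) (pPart r B)
      (fun X => IsPGroup r X) isPGroup_pPart (perm_pPart hA hB h)
      (fun X X' hX hXp _ ⟨x, hle⟩ => ((hXp x).isPGroup hX (isPGroup_pPart.of_equiv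
        (Subgroup.equivSMul (MulAut.conj x) (pPart r B)))).to_le hle)
    set N := Subgroup.normalClosure (pPart r B : Set G)
    haveI hNn : N.Normal := Subgroup.normalClosure_normal
    have hN0 : N ≠ ⊥ := ne_bot_of_le_ne_bot (hne B hB hrB) Subgroup.le_normalClosure
    have hO : Cfsg.pCore r G = ⊥ :=
      hnosolv _ (H19.pCore_normal r G)
        (haveI := (H19.pCore_isPGroup r (G := G)).isNilpotent; inferInstance)
    have hXN0 : X ⊓ N = ⊥ := by
      have hn : ((X ⊓ N).subgroupOf N).Normal := by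
        rw [Subgroup.normal_subgroupOf_iff_le_normalizer inf_le_right]
        exact (le_inf hXN Subgroup.le_normalizer).trans Subgroup.inf_normalizer_le_normalizer_inf
      rw [eq_bot_iff, ← hO, ← Subgroup.map_subgroupOf_eq_of_le (inf_le_right : X ⊓ N ≤ N)]
      exact (Subgroup.map_mono (H19.le_pCore hn ((hXr.to_le inf_le_left).of_equiv
        (Subgroup.subgroupOfEquivOfLe inf_le_right).symm))).trans (H19.map_pCore_le N)
    have hXC : X ≤ Subgroup.centralizer (N : Set G) := by
      intro x hx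
      refine Subgroup.mem_centralizer_iff.2 fun n hn => ?_
      have h1 : n * x * n⁻¹ * x⁻¹ ∈ X ⊓ N := by
        refine Subgroup.mem_inf.2 ⟨X.mul_mem ((Subgroup.mem_normalizer_iff.1 (hXN hn) x).1 hx) (X.inv_mem hx), ?_⟩
        have := N.mul_mem hn (hNn.conj_mem _ (N.inv_mem hn) x)
        simpa [mul_assoc] using this
      rw [hXN0, Subgroup.mem_bot, mul_inv_eq_one, mul_inv_eq_iff_eq_mul] at h1
      exact h1
    refine hmeet N _ hNn inferInstance hN0
      (ne_bot_of_le_ne_bot (ne_bot_of_le_ne_bot (hne A hA hrA) hAX) hXC) (hnosolv _ inferInstance ?_)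
    exact Group.isSolvable_of_comm fun a b => Subtype.ext
      (Subgroup.mem_centralizer_iff.1 b.2.2 a a.2.1)

end Cfsg.Agent.H33
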