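import Cfsg.Agent.H33.KegelWielandt
import Cfsg.Agent.H33.Frattini
import Cfsg.Agent.H19.MinimalNormal
import Cfsg.Agent.H19.SchurZassenhaus
import Cfsg.Agent.H19.Misc

/-! One factor of a product of two nilpotent groups lies in a proper normal subgroup. -/

open scoped Pointwise

namespace Cfsg.Agent.H33

universe u

/-- A proper subgroup of a finite nilpotent group lies in a proper normal subgroup. -/
theorem exists_normal_ge_of_isNilpotent {G : Type*} [Group G] [Finite G] (hG : Group.IsNilpotent G)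
    {X : Subgroup G} (hX : X ≠ ⊤) : ∃ N : Subgroup G, N.Normal ∧ N ≠ ⊤ ∧ X ≤ N := by
  obtain ⟨M, hM, hle⟩ := (eq_top_or_exists_le_coatom X).resolve_left hX
  exact ⟨M, (Group.isNilpotent_of_finite_tfae.out 0 2 rfl rfl).1 hG M hM, hM.1, hle⟩

/-- If `G = AB` with `A`, `B` nilpotent, not both equal to `G`, then `A` or `B` lies in a proper
normal subgroup. -/
theorem exists_normal_proper_ge_factor {G : Type u} [Group G] [Finite G] (A B : Subgroup G)
    (hA : Group.IsNilpotent A) (hB : Group.IsNilpotent B)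
    (h : ∀ g : G, ∃ a ∈ A, ∃ b ∈ B, g = a * b) (hp : A ≠ ⊤ ∨ B ≠ ⊤) :
    ∃ N : Subgroup G, N.Normal ∧ N ≠ ⊤ ∧ (A ≤ N ∨ B ≤ N) := by
  induction hn : Nat.card G using Nat.strong_induction_on generalizing G with
  | _ n ih =>
  haveI hAi := hA
  haveI hBi := hB
  by_cases hA1 : A = ⊤
  · obtain ⟨N, h1, h2, h3⟩ := exists_normal_ge_of_isNilpotent
      (by
        haveI : Group.IsNilpotent (⊤ : Subgroup G) := hA1 ▸ hA
        exact Group.nilpotent_of_mulEquiv Subgroup.topEquiv)
      (hp.resolve_left (fun e => e hA1))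
    exact ⟨N, h1, h2, Or.inr h3⟩
  by_cases hB1 : B = ⊤
  · obtain ⟨N, h1, h2, h3⟩ := exists_normal_ge_of_isNilpotent
      (by
        haveI : Group.IsNilpotent (⊤ : Subgroup G) := hB1 ▸ hB
        exact Group.nilpotent_of_mulEquiv Subgroup.topEquiv)
      hA1
    exact ⟨N, h1, h2, Or.inl h3⟩
  haveI : Nontrivial G := by
    by_contra hs
    rw [not_nontrivial_iff_subsingleton] at hs
    exact hA1 (Subsingleton.elim _ _)
  haveI := isSolvable_of_prod_nilpotent A B hA hB h
  have hquot : ∀ N : Subgroup G, [N.Normal] → N ≠ ⊥ → A ⊔ N ≠ ⊤ ∨ B ⊔ N ≠ ⊤ →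
      ∃ M : Subgroup G, M.Normal ∧ M ≠ ⊤ ∧ (A ≤ M ∨ B ≤ M) := by
    intro N _ hN hor
    have hsurj := QuotientGroup.mk'_surjective N
    have htop : ∀ X : Subgroup G, X ⊔ N ≠ ⊤ → X.map (QuotientGroup.mk' N) ≠ ⊤ := fun X hX e =>
      hX (by
        have := congrArg (Subgroup.comap (QuotientGroup.mk' N)) e
        rwa [Subgroup.comap_map_eq, QuotientGroup.ker_mk', Subgroup.comap_top] at this)
    obtain ⟨M, hM, hM1, hle⟩ := ih _ (hn ▸ H19.card_quotient_lt N hN)
      (A.map (QuotientGroup.mk' N)) (B.map (QuotientGroup.mk' N))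
      (Group.nilpotent_of_surjective _ ((QuotientGroup.mk' N).subgroupMap_surjective A))
      (Group.nilpotent_of_surjective _ ((QuotientGroup.mk' N).subgroupMap_surjective B))
      (prod_map h _ hsurj) (hor.imp (htop A) (htop B)) rfl
    refine ⟨M.comap (QuotientGroup.mk' N), hM.comap _, fun e => hM1 ?_,
      hle.imp Subgroup.map_le_iff_le_comap.1 Subgroup.map_le_iff_le_comap.1⟩
    rw [← Subgroup.map_comap_eq_self_of_surjective hsurj M, e, Subgroup.map_top_of_surjective _ hsurj]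
  obtain ⟨N, hN, hN0, -, hmin⟩ := H19.exists_minimalNormal_le (⊤ : Subgroup G) top_ne_bot
  haveI := hN
  obtain ⟨hc, p, hpr, hNp, -⟩ := H19.minimalNormal_elementary N inferInstance hN0 hmin
  haveI := hc
  haveI : Fact p.Prime := ⟨hpr⟩
  by_cases hAN : A ⊔ N = ⊤
  swap
  · exact hquot N hN0 (Or.inl hAN)
  by_cases hBN : B ⊔ N = ⊤
  swap
  · exact hquot N hN0 (Or.inr hBN)
  have hcompl : ∀ X : Subgroup G, X ≠ ⊤ → X ⊔ N = ⊤ → Subgroup.IsComplement' N X := by
    intro X hX hXN
    have hXN' : N ⊔ X = ⊤ := sup_comm N X ▸ hXN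
    have hn' : (N ⊓ X).Normal := by
      refine ⟨fun x hx g => ?_⟩
      rw [Subgroup.mem_inf] at hx ⊢
      obtain ⟨m, hm, y, hy, rfl⟩ := H19.exists_mul_of_sup_eq_top hXN' g
      have h1 : y * x * y⁻¹ ∈ N := hN.conj_mem x hx.1 y
      have h2 : m * y * x * (m * y)⁻¹ = y * x * y⁻¹ := by
        have : m * (y * x * y⁻¹) = y * x * y⁻¹ * m :=
          congrArg Subtype.val (hc.is_comm.comm (⟨m, hm⟩ : N) (⟨_, h1⟩ : N))
        calc m * y * x * (m * y)⁻¹ = m * (y * x * y⁻¹) * m⁻¹ := by group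
          _ = y * x * y⁻¹ := by rw [this, mul_inv_cancel_right]
      rw [h2]
      exact ⟨h1, X.mul_mem (X.mul_mem hy hx.2) (X.inv_mem hy)⟩
    rcases hmin _ hn' inf_le_left with h0 | h0
    · exact Subgroup.isComplement'_of_disjoint_and_mul_eq_univ (disjoint_iff.2 h0) (by
        rw [← Subgroup.normal_mul, hXN', Subgroup.coe_top])
    · exact absurd (sup_eq_left.2 (inf_eq_left.1 h0) ▸ hXN) hX
  have hcA := hcompl A hA1 hAN
  have hcB := hcompl B hB1 hBN
  -- the kernel of the action of `A` on `N`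
  set K := A ⊓ Subgroup.centralizer (N : Set G) with hK
  have hfix : ∀ X : Subgroup G, X ≤ Subgroup.centralizer (N : Set G) →
      N ≤ Subgroup.normalizer (X : Set G) := by
    intro X hX n hn'
    rw [Subgroup.mem_normalizer_iff]
    intro y
    constructor <;> intro hy
    · rwa [Subgroup.mem_centralizer_iff.1 (hX hy) n hn', mul_inv_cancel_right]
    · have := Subgroup.mem_centralizer_iff.1 (hX hy) n hn'
      have e : y = n * y * n⁻¹ := mul_left_cancel (a := n) (by rw [this]; group)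
      rwa [e]
  haveI hKn : K.Normal := by
    rw [← Subgroup.normalizer_eq_top_iff, eq_top_iff, ← hAN]
    refine sup_le ?_ (hfix _ inf_le_right)
    refine (le_inf Subgroup.le_normalizer ?_).trans Subgroup.inf_normalizer_le_normalizer_inf
    rw [Subgroup.normalizer_eq_top]
    exact le_top
  by_cases hK0 : K = ⊥
  swap
  · exact hquot K hK0 (Or.inl (by rwa [sup_eq_left.2 (inf_le_left : K ≤ A)]))
  -- now `A` is a `p'`-group
  exfalso
  set S := N ⊔ pPart p A with hS
  have hSp : IsPGroup p S := hNp.to_sup_of_normal_left isPGroup_pPart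
  haveI : Group.IsNilpotent S := hSp.isNilpotent
  haveI : (N.subgroupOf S).Normal := Subgroup.Normal.comap hN _
  have hne : N.subgroupOf S ≠ ⊥ := by
    rw [Ne, Subgroup.subgroupOf_eq_bot, disjoint_iff, inf_eq_left.2 (le_sup_left : N ≤ S)]
    exact hN0
  set U := N ⊓ Subgroup.centralizer ((pPart p A : Subgroup G) : Set G) with hU
  haveI hUn : U.Normal := by
    rw [← Subgroup.normalizer_eq_top_iff, eq_top_iff, ← hAN]
    refine sup_le ?_ (hfix _ ?_)
    · refine (le_inf ?_ ((le_normalizer_pPart p A).trans normalizer_le_normalizer_centralizer)).trans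
        Subgroup.inf_normalizer_le_normalizer_inf
      rw [Subgroup.normalizer_eq_top]
      exact le_top
    · intro x hx
      exact Subgroup.mem_centralizer_iff.2 fun n hn' =>
        congrArg Subtype.val (hc.is_comm.comm (⟨n, hn'⟩ : N) (⟨x, hx.1⟩ : N))
  have hU0 : U ≠ ⊥ := by
    intro e
    refine H19.inf_center_ne_bot _ hne (eq_bot_iff.2 fun x hx => ?_)
    have hx' : (x : G) ∈ U := Subgroup.mem_inf.2 ⟨hx.1, Subgroup.mem_centralizer_iff.2 fun y hy =>
      congrArg Subtype.val (Subgroup.mem_center_iff.1 hx.2 ⟨y, Subgroup.mem_sup_right hy⟩)⟩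
    rw [e, Subgroup.mem_bot] at hx'
    exact Subgroup.mem_bot.2 (Subtype.ext hx')
  have hP0 : pPart p A = ⊥ := by
    rw [eq_bot_iff, ← hK0]
    refine le_inf (pPart_le p A) fun x hx => Subgroup.mem_centralizer_iff.2 fun n hn' => ?_
    have hnU : n ∈ U := ((hmin U hUn inf_le_left).resolve_left hU0).symm ▸ hn'
    exact ((Subgroup.mem_centralizer_iff.1 (Subgroup.mem_inf.1 hnU).2) x hx).symm
  have hpA : ¬ p ∣ Nat.card A := by
    intro hd
    have := card_pPart (p := p) hA
    rw [hP0, Subgroup.card_bot] at this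
    exact (Nat.one_lt_pow (hpr.factorization_pos_of_dvd Nat.card_pos.ne' hd).ne' hpr.one_lt).ne this
  obtain ⟨k, hk⟩ := IsPGroup.iff_card.1 hNp
  obtain ⟨a, -, ha⟩ := H19.sz_conj_abelian N (by
    rw [hk, ← H19.card_eq_index_of_isComplement' hcA]
    exact ((Nat.Prime.coprime_iff_not_dvd hpr).2 hpA).pow_left k) hcA hcB
  obtain ⟨b, hb, a', ha', rfl⟩ := prod_swap h a
  rw [H19.conj_mul_smul, H19.conj_smul_of_mem ha'] at ha
  have hAB : A = B := by
    have := congrArg (fun X : Subgroup G => MulAut.conj b⁻¹ • X) ha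
    rwa [H19.conj_smul_of_mem (B.inv_mem hb), map_inv, inv_smul_smul] at this
  refine hA1 (eq_top_iff.2 fun g _ => ?_)
  obtain ⟨x, hx, y, hy, rfl⟩ := h g
  exact A.mul_mem hx (hAB.symm ▸ hy)

end Cfsg.Agent.H33
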