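import Cfsg.Agent.H32.Supersolvable
import Cfsg.Agent.H33.ItoNormal
import Mathlib.GroupTheory.SpecificGroups.Cyclic

/-! A product of two cyclic groups is supersolvable. -/

namespace Cfsg.Agent.H33

universe u

/-- A finite product of two cyclic subgroups is supersolvable. -/
theorem isSupersolvable_of_prod_cyclic {G : Type u} [Group G] [Finite G] (A B : Subgroup G)
    [IsCyclic A] [IsCyclic B] (h : ∀ g : G, ∃ a ∈ A, ∃ b ∈ B, g = a * b) :
    Cfsg.IsSupersolvable G := by
  induction hn : Nat.card G using Nat.strong_induction_on generalizing G with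
  | _ n ih =>
  cases subsingleton_or_nontrivial G
  · exact H32.isSupersolvable_of_subsingleton
  obtain ⟨N, hN, hN0, hle⟩ := exists_normal_le_factor A B h
  haveI := hN
  haveI : IsCyclic N := hle.elim (fun h => Subgroup.isCyclic_of_le h) (fun h => Subgroup.isCyclic_of_le h)
  haveI : IsCyclic (A.map (QuotientGroup.mk' N)) :=
    isCyclic_of_surjective _ ((QuotientGroup.mk' N).subgroupMap_surjective A)
  haveI : IsCyclic (B.map (QuotientGroup.mk' N)) :=
    isCyclic_of_surjective _ ((QuotientGroup.mk' N).subgroupMap_surjective B)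
  exact H32.isSupersolvable_of_cyclic_normal N
    (ih _ (hn ▸ H19.card_quotient_lt N hN0) _ _ (prod_map h _ (QuotientGroup.mk'_surjective _)) rfl)

end Cfsg.Agent.H33
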