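import Mathlib
import Cfsg.Prelude
import Cfsg.Agent.H92.RootInvClass

/-!
The radical of a group generated by a connected set of root involutions with a product in it.
-/

set_option autoImplicit false

namespace Cfsg.Agent.H33.RootRad

open Cfsg
open Cfsg.Agent.H92

variable {G : Type*} [Group G] [Finite G] {D : Set G}
  (hD : IsRootInvolutionSet D) (hc : IsConnectedSet (OddAdj D) D)
include hD

omit [Finite G] in
lemma conj_of_odd {a b : G} (h : OddAdj D a b) : ∃ g : G, b = g * a * g⁻¹ := by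
  obtain ⟨k, hk⟩ : Odd (orderOf (b * a)) := by
    rw [RI.orderOf_mul_symm hD h.1 h.2.1]; exact h.2.2.2
  set w := b * a with hw
  have haw : a * w * a⁻¹ = w⁻¹ := by
    rw [RI.inv_self hD h.1, hw, RI.mul_inv_eq hD h.2.1 h.1, mul_assoc, mul_assoc,
      RI.sq_one hD h.1, mul_one]
  have hj : a * (w ^ (k + 1))⁻¹ = w ^ (k + 1) * a := by
    rw [← inv_pow, ← haw, conj_pow]
    calc a * (a * w ^ (k + 1) * a⁻¹) = (a * a) * w ^ (k + 1) * a⁻¹ := by group
      _ = w ^ (k + 1) * a := by rw [RI.sq_one hD h.1, one_mul, RI.inv_self hD h.1]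
  refine ⟨w ^ (k + 1), ?_⟩
  rw [mul_assoc, hj, ← mul_assoc, ← pow_add, show k + 1 + (k + 1) = (2 * k + 1) + 1 by ring,
    ← hk, pow_succ, pow_orderOf_eq_one, one_mul, hw, mul_assoc, RI.sq_one hD h.1, mul_one]

include hc

omit [Finite G] in
lemma eq_top_of_mem {N : Subgroup G} (hN : N.Normal) {d : G} (hd : d ∈ D) (hdN : d ∈ N) :
    N = ⊤ := by
  rw [eq_top_iff, ← hD.generates, Subgroup.closure_le]
  intro e he
  have h := hc d hd e he
  induction h with
  | refl => exact hdN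
  | tail _ h ih =>
    obtain ⟨g, rfl⟩ := conj_of_odd hD h
    exact hN.conj_mem _ (ih h.1) g

omit [Finite G] hc in
lemma mem_of_odd_sq {N : Subgroup G} [N.Normal] {u v : G} (ho : Odd (orderOf u))
    (hu : (u : G ⧸ N) = (v : G ⧸ N)) (hv : v ^ 2 = 1) : v ∈ N := by
  rw [← QuotientGroup.eq_one_iff]
  rw [← orderOf_eq_one_iff, ← Nat.dvd_one]
  obtain ⟨k, hk⟩ := ho
  have h1 : orderOf (v : G ⧸ N) ∣ 2 := orderOf_dvd_of_pow_eq_one (by
    rw [← QuotientGroup.mk_pow, hv]; rfl)
  have h2 : orderOf (v : G ⧸ N) ∣ orderOf u := hu ▸ orderOf_map_dvd (QuotientGroup.mk' N) u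
  have := Nat.dvd_gcd h1 h2
  rwa [hk, show Nat.gcd 2 (2 * k + 1) = 1 by simp] at this

lemma commutator_le_pCore {N : Subgroup G} [hN : N.Normal] (hne : N ≠ ⊤) {a e : G} (ha : a ∈ D)
    (he : e ∈ productPartners D a) (n : G) (hn : n ∈ N) : a * n * a⁻¹ * n⁻¹ ∈ pCore 2 G := by
  haveI : Fact (Nat.Prime 2) := ⟨Nat.prime_two⟩
  obtain ⟨heD, hea, -, hfD⟩ := RI.partner_facts hD he
  have haa := RI.sq_one hD ha
  have hno : ∀ m ∈ N, ¬ OddAdj D a (m * a * m⁻¹) := by
    intro m hm hx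
    have hm1 : (m : G ⧸ N) = 1 := (QuotientGroup.eq_one_iff m).2 hm
    rcases RI.odd_or_odd hD he hx with h | h
    · refine hne (eq_top_of_mem hD hc hN hfD
        (mem_of_odd_sq hD (N := N) h.2.2.2 (v := e * a) ?_ ?_))
      · rw [hea]; simp [hm1]
      · exact RI.sq_eq_one_of_comm hD heD ha hea
    · refine hne (eq_top_of_mem hD hc hN heD
        (mem_of_odd_sq hD (N := N) h.2.2.2 (v := e) ?_ (by rw [pow_two, RI.sq_one hD heD])))
      have h1 : a * (e * a) = e := by rw [← mul_assoc, ← hea, mul_assoc, haa, mul_one]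
      calc ((m * a * m⁻¹ * (e * a) : G) : G ⧸ N) = ((a * (e * a) : G) : G ⧸ N) := by simp [hm1]
        _ = (e : G ⧸ N) := by rw [h1]
  set M := N ⊔ Subgroup.zpowers a with hM
  have haM : a ∈ M := Subgroup.mem_sup_right (Subgroup.mem_zpowers a)
  obtain ⟨W, hW, hWp, haW⟩ := Cfsg.Agent.H28.baer_suzuki_element (p := 2) (⟨a, haM⟩ : M) (by
    rintro ⟨g, hg⟩
    obtain ⟨m, hm, b, hb, rfl⟩ := Subgroup.mem_sup_of_normal_left.1 hg
    have hconj : m * b * a * (m * b)⁻¹ = m * a * m⁻¹ := by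
      obtain ⟨i, rfl⟩ := Subgroup.mem_zpowers_iff.1 hb
      group
    have hxD : m * a * m⁻¹ ∈ D := hD.conj_mem a ha m
    refine Cfsg.Agent.H28.isPGroup_closure_pair (a := 2) ?_ ?_ ?_
    · rw [Subgroup.orderOf_mk]; exact hD.orderOf_eq a ha
    · rw [← Subgroup.orderOf_coe]
      push_cast
      rw [hconj]; exact hD.orderOf_eq _ hxD
    · rw [← Subgroup.orderOf_coe]
      push_cast
      rw [hconj]
      rcases hD.pair a ha _ hxD with h | h | h
      · exact orderOf_dvd_of_pow_eq_one (by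
          rw [show (4 : ℕ) = 2 * 2 from rfl, pow_mul, RI.sq_eq_one_of_comm hD ha hxD h, one_pow])
      · by_cases he' : a = m * a * m⁻¹
        · rw [← he', haa, orderOf_one]; exact one_dvd _
        · exact absurd ⟨ha, hxD, he', h⟩ (hno m hm)
      · rw [h.1])
  set S := W.map M.subtype ⊓ N with hS
  have hSp : IsPGroup 2 ↥S := (hWp.map M.subtype).to_le inf_le_left
  have hnM : n ∈ M := Subgroup.mem_sup_left hn
  have hcS : a * n * a⁻¹ * n⁻¹ ∈ W.map M.subtype := by
    refine ⟨⟨a, haM⟩ * ((⟨n, hnM⟩ : M) * (⟨a, haM⟩ : M)⁻¹ * (⟨n, hnM⟩ : M)⁻¹),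
      mul_mem haW (hW.conj_mem _ (inv_mem haW) _), ?_⟩
    simp [mul_assoc]
  have hcN : a * n * a⁻¹ * n⁻¹ ∈ N := mul_mem (hN.conj_mem n hn a) (inv_mem hn)
  -- the normal closure of `S` inside `N` is a normal `2`-subgroup of `N`
  have hSn : (S.subgroupOf N).Normal := by
    refine ⟨fun x hx g => ?_⟩
    rw [Subgroup.mem_subgroupOf] at hx ⊢
    obtain ⟨⟨w, hw, hwx⟩, -⟩ := hx
    refine ⟨⟨(⟨g, Subgroup.mem_sup_left g.2⟩ : M) * w * (⟨g, Subgroup.mem_sup_left g.2⟩ : M)⁻¹,
      hW.conj_mem _ hw _, ?_⟩, (g * x * g⁻¹).2⟩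
    rw [Subgroup.coe_mul, Subgroup.coe_mul, Subgroup.coe_inv, ← hwx]
    simp
  have h1 : S.subgroupOf N ≤ pCore 2 N :=
    Cfsg.Agent.H19.le_pCore hSn (hSp.comap_of_injective _ N.subtype_injective)
  exact Cfsg.Agent.H19.map_pCore_le N
    ⟨⟨_, hcN⟩, h1 (Subgroup.mem_subgroupOf.2 ⟨hcS, hcN⟩), rfl⟩

/-- Every proper normal subgroup is central modulo `O_2(G)`. -/
lemma le_twoZCore {N : Subgroup G} [N.Normal] (hne : N ≠ ⊤) {a e : G} (ha : a ∈ D)
    (he : e ∈ productPartners D a) : N ≤ twoZCore G := by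
  haveI : (pCore 2 G).Normal := Cfsg.Agent.H19.pCore_normal 2 G
  intro n hn
  show (n : G ⧸ pCore 2 G) ∈ Subgroup.center _
  have hcl : ∀ d ∈ D, Commute (d : G ⧸ pCore 2 G) (n : G ⧸ pCore 2 G) := by
    intro d hd
    obtain ⟨g, hg⟩ : ∃ g : G, d = g * a * g⁻¹ := by
      have h := hc a ha d hd
      induction h with
      | refl => exact ⟨1, by group⟩
      | tail _ h ih =>
        obtain ⟨g, rfl⟩ := ih h.1
        obtain ⟨g', hg'⟩ := conj_of_odd hD h
        exact ⟨g' * g, by rw [hg']; group⟩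
    have h1 : ∀ m ∈ N, ((a * m : G) : G ⧸ pCore 2 G) = ((m * a : G) : G ⧸ pCore 2 G) := by
      intro m hm
      have h2 := (QuotientGroup.eq_one_iff (N := pCore 2 G) (a * m * a⁻¹ * m⁻¹)).2
        (commutator_le_pCore hD hc hne ha he m hm)
      rw [show a * m = (a * m * a⁻¹ * m⁻¹) * (m * a) by group, QuotientGroup.mk_mul, h2, one_mul]
    have h3 := h1 (g⁻¹ * n * g) (by
      simpa using Subgroup.Normal.conj_mem (inferInstance : N.Normal) n hn g⁻¹)
    have h4 := congrArg (fun z : G ⧸ pCore 2 G =>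
      (g : G ⧸ pCore 2 G) * z * (g : G ⧸ pCore 2 G)⁻¹) h3
    subst hg
    show _ * _ = _ * _
    simp only [QuotientGroup.mk_mul, QuotientGroup.mk_inv] at h4 ⊢
    simpa [mul_assoc] using h4
  rw [Subgroup.mem_center_iff]
  intro q
  obtain ⟨x, rfl⟩ := QuotientGroup.mk_surjective q
  have hx : x ∈ Subgroup.closure D := hD.generates.symm ▸ Subgroup.mem_top x
  induction hx using Subgroup.closure_induction with
  | mem d hd => exact hcl d hd
  | one => simp
  | mul x y _ _ hx hy => exact Commute.mul_left hx hy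
  | inv x _ hx => exact Commute.inv_left hx

theorem radical_eq (hDD : (D ∩ commutingProducts D).Nonempty) :
    solvableRadical G = twoZCore G ∧ IsSimpleGroup (G ⧸ twoZCore G) := by
  haveI : Fact (Nat.Prime 2) := ⟨Nat.prime_two⟩
  haveI : (pCore 2 G).Normal := Cfsg.Agent.H19.pCore_normal 2 G
  obtain ⟨f, hf, a, ha, b, hb, hab, hne1, rfl⟩ := hDD
  have he : b ∈ productPartners D a := ⟨⟨hb, hab.symm, fun h => hne1 (by
    rw [h]; exact RI.sq_one hD ha)⟩, by rw [← hab]; exact hf⟩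
  -- `G` is perfect: `D` lies in the kernel of every map to an abelian group
  have hperf : ∀ x : G, x ∈ commutator G := by
    refine fun x => (eq_top_of_mem hD hc (inferInstanceAs (commutator G).Normal) hf ?_).ge
      (Subgroup.mem_top x)
    have hcl : ∀ d ∈ D, Abelianization.of d = Abelianization.of a := by
      intro d hd
      have h := hc a ha d hd
      induction h with
      | refl => rfl
      | tail _ h ih =>
        obtain ⟨g, hg⟩ := conj_of_odd hD h
        rw [hg, map_mul, map_mul, map_inv, mul_inv_cancel_comm, ih h.1]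
    rw [← Abelianization.ker_of, MonoidHom.mem_ker, map_mul, hcl b hb, ← map_mul,
      RI.sq_one hD ha, map_one]
  have hnt : twoZCore G ≠ ⊤ := by
    intro h
    have hq : ∀ x y : G, ((x * y * x⁻¹ * y⁻¹ : G) : G ⧸ pCore 2 G) = 1 := by
      intro x y
      have hy : (y : G ⧸ pCore 2 G) ∈ Subgroup.center _ :=
        (h.ge (Subgroup.mem_top y) : y ∈ twoZCore G)
      rw [QuotientGroup.mk_mul, QuotientGroup.mk_mul, QuotientGroup.mk_mul, QuotientGroup.mk_inv,
        QuotientGroup.mk_inv, Subgroup.mem_center_iff.1 hy, mul_inv_cancel_right, mul_inv_cancel]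
    have h1 : commutator G ≤ pCore 2 G := by
      rw [commutator_def, Subgroup.commutator_le]
      intro x _ y _
      exact (QuotientGroup.eq_one_iff _).1 (hq x y)
    have hG : IsPGroup 2 G := by
      intro x
      obtain ⟨k, hk⟩ := Cfsg.Agent.H19.pCore_isPGroup (G := G) 2 ⟨x, h1 (hperf x)⟩
      exact ⟨k, by simpa using congrArg Subtype.val hk⟩
    haveI := hG.isNilpotent
    haveI : Nontrivial G := ⟨⟨a, 1, RI.ne_one hD ha⟩⟩
    exact (IsSolvable.commutator_lt_top_of_nontrivial G).ne (eq_top_iff.2 fun x _ => hperf x)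
  have hsol : Group.IsSolvable ↥(twoZCore G) := by
    haveI := (Cfsg.Agent.H19.pCore_isPGroup (G := G) 2).isNilpotent
    haveI : Group.IsSolvable ↥(Subgroup.center (G ⧸ pCore 2 G)) :=
      isSolvable_of_comm fun x y => Subtype.ext (Subgroup.mem_center_iff.1 y.2 x)
    let φ : ↥(twoZCore G) →* ↥(Subgroup.center (G ⧸ pCore 2 G)) :=
      (QuotientGroup.mk' (pCore 2 G)).subgroupComap _
    refine solvable_of_ker_le_range (Subgroup.inclusion (show pCore 2 G ≤ twoZCore G from ?_)) φ ?_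
    · intro x hx
      show (x : G ⧸ pCore 2 G) ∈ Subgroup.center _
      rw [(QuotientGroup.eq_one_iff x).2 hx]
      exact one_mem _
    · intro x hx
      have : (x : G) ∈ pCore 2 G :=
        (QuotientGroup.eq_one_iff _).1 (congrArg Subtype.val (MonoidHom.mem_ker.1 hx))
      exact ⟨⟨x, this⟩, rfl⟩
  refine ⟨le_antisymm (sSup_le ?_) (le_sSup ⟨inferInstance, hsol⟩), ?_⟩
  · rintro N ⟨hN, hNs⟩
    refine le_twoZCore hD hc (fun h => ?_) ha he
    subst h
    haveI : Group.IsSolvable G :=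
      solvable_of_surjective (f := (⊤ : Subgroup G).subtype) fun x => ⟨⟨x, trivial⟩, rfl⟩
    haveI : Nontrivial G := ⟨⟨a, 1, RI.ne_one hD ha⟩⟩
    exact (IsSolvable.commutator_lt_top_of_nontrivial G).ne (eq_top_iff.2 fun x _ => hperf x)
  · haveI : Nontrivial (G ⧸ twoZCore G) := QuotientGroup.nontrivial_iff.2 hnt
    refine ⟨fun H hH => ?_⟩
    by_cases hne : H.comap (QuotientGroup.mk' (twoZCore G)) = ⊤
    · right
      rw [← Subgroup.map_comap_eq_self_of_surjective (QuotientGroup.mk'_surjective _) H, hne,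
        Subgroup.map_top_of_surjective _ (QuotientGroup.mk'_surjective _)]
    · left
      haveI := hH.comap (QuotientGroup.mk' (twoZCore G))
      rw [← Subgroup.map_comap_eq_self_of_surjective (QuotientGroup.mk'_surjective _) H,
        eq_bot_iff, ← QuotientGroup.map_mk'_self (twoZCore G)]
      exact Subgroup.map_mono (le_twoZCore hD hc hne ha he)

end Cfsg.Agent.H33.RootRad
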