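import Cfsg.Agent.H32.SupersolvableStructure
import Cfsg.Agent.H19.Basic
import Mathlib.GroupTheory.Sylow

/-! Supersolvable Hall subgroups of equal order are conjugate. -/

open scoped Pointwise

namespace Cfsg.Agent.H33

universe u

/-- A Sylow subgroup of a Hall subgroup, for a prime dividing its order, is a Sylow subgroup. -/
theorem exists_sylow_eq_map_of_hall {G : Type*} [Group G] [Finite G] {p : ℕ} [hp : Fact p.Prime]
    {H : Subgroup G} (hH : (Nat.card H).Coprime H.index) (hd : p ∣ Nat.card H) (P : Sylow p H) :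
    ∃ R : Sylow p G, (R : Subgroup G) = (P : Subgroup H).map H.subtype := by
  have h : ¬ p ∣ ((P : Subgroup H).map H.subtype).index := by
    rw [Subgroup.index_map_subtype]
    refine fun h => (hp.out.dvd_mul.1 h).elim P.not_dvd_index fun h' => ?_
    exact hp.out.ne_one (Nat.eq_one_of_dvd_coprimes hH hd h')
  exact ⟨(P.isPGroup'.map H.subtype).toSylow h, rfl⟩

/-- Supersolvable Hall subgroups of the same order are conjugate. -/
theorem exists_conj_of_supersolvable_hall {G : Type u} [Group G] [Finite G] (H K : Subgroup G)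
    (hH : Cfsg.IsSupersolvable H) (hK : Cfsg.IsSupersolvable K)
    (hcard : Nat.card H = Nat.card K) (hHall : (Nat.card H).Coprime H.index) :
    ∃ x : G, MulAut.conj x • H = K := by
  induction hn : Nat.card H using Nat.strong_induction_on generalizing G with
  | _ n ih =>
  by_cases h1 : Nat.card H = 1
  · refine ⟨1, ?_⟩
    have hK1 : Nat.card K = 1 := by rw [← hcard, h1]
    rw [Subgroup.card_eq_one.1 h1, Subgroup.card_eq_one.1 hK1]
    simp
  have hne : (Nat.card H).primeFactors.Nonempty :=
    Nat.nonempty_primeFactors.2 (lt_of_le_of_ne Nat.card_pos (Ne.symm h1))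
  set q := (Nat.card H).primeFactors.max' hne with hqdef
  have hqm := Finset.max'_mem _ hne
  rw [← hqdef, Nat.mem_primeFactors] at hqm
  haveI : Fact q.Prime := ⟨hqm.1⟩
  have hmax : ∀ r : ℕ, r.Prime → r ∣ Nat.card H → r ≤ q := fun r hr hd =>
    Finset.le_max' _ _ (Nat.mem_primeFactors.2 ⟨hr, hd, Nat.card_pos.ne'⟩)
  have hKindex : K.index = H.index := by
    have := H.card_mul_index.trans K.card_mul_index.symm
    rw [hcard] at this
    exact (Nat.eq_of_mul_eq_mul_left Nat.card_pos this).symm
  have hnorm : ∀ X : Subgroup G, Cfsg.IsSupersolvable X → Nat.card X = Nat.card H →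
      (Nat.card X).Coprime X.index → ∀ P : Sylow q X, ∃ R : Sylow q G,
        (R : Subgroup G) ≤ X ∧ X ≤ Subgroup.normalizer ((R : Subgroup G) : Set G) := by
    intro X hX hXc hXh P
    obtain ⟨R, hR⟩ := exists_sylow_eq_map_of_hall hXh (hXc ▸ hqm.2.1) P
    refine ⟨R, hR ▸ Subgroup.map_subtype_le _, ?_⟩
    rw [hR, ← Subgroup.normal_subgroupOf_iff_le_normalizer (Subgroup.map_subtype_le _),
      Subgroup.subgroupOf, Subgroup.comap_map_eq_self_of_injective X.subtype_injective]
    exact H32.normal_sylow_largest hX (fun r hr hd => hmax r hr (hXc ▸ hd)) P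
  obtain ⟨RH, hRH, hHN⟩ := hnorm H hH rfl hHall Classical.ofNonempty
  obtain ⟨RK, hRK, hKN⟩ := hnorm K hK hcard.symm (by rwa [hKindex, ← hcard]) Classical.ofNonempty
  obtain ⟨g, hg⟩ := MulAction.exists_smul_eq G RK RH
  have hconj : MulAut.conj g • (RK : Subgroup G) = (RH : Subgroup G) := by
    rw [← hg, Sylow.coe_subgroup_smul]
  -- replace `K` by `L = K^g`, which contains `RH` as a normal subgroup
  set L := MulAut.conj g • K with hL
  have hLc : Nat.card L = Nat.card H := by rw [hL, H19.card_conj_smul, hcard]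
  have hLR : (RH : Subgroup G) ≤ L := hconj ▸ Subgroup.pointwise_smul_le_pointwise_smul_iff.2 hRK
  have hLN : L ≤ Subgroup.normalizer ((RH : Subgroup G) : Set G) := by
    intro x hx
    rw [hL, H19.mem_conj_smul] at hx
    have hx' := Subgroup.mem_normalizer_iff.1 (hKN hx)
    rw [Subgroup.mem_normalizer_iff]
    intro y
    rw [← hconj, H19.mem_conj_smul, H19.mem_conj_smul, hx' (g⁻¹ * y * g)]
    simp [mul_assoc]
  set N := Subgroup.normalizer ((RH : Subgroup G) : Set G) with hNdef
  haveI : ((RH : Subgroup G).subgroupOf N).Normal := Subgroup.normal_in_normalizer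
  set f := QuotientGroup.mk' ((RH : Subgroup G).subgroupOf N) with hf
  have hker : f.ker = (RH : Subgroup G).subgroupOf N := QuotientGroup.ker_mk' _
  have hkerX : ∀ X : Subgroup G, (RH : Subgroup G) ≤ X → f.ker ≤ X.subgroupOf N := fun X hX => by
    rw [hker]; exact Subgroup.comap_mono hX
  have hcardX : ∀ X : Subgroup G, (RH : Subgroup G) ≤ X → X ≤ N →
      Nat.card (RH : Subgroup G) * Nat.card ((X.subgroupOf N).map f) = Nat.card X := by
    intro X hRX hXN
    rw [← Subgroup.relIndex_ker, hker,
      ← Nat.card_congr (Subgroup.subgroupOfEquivOfLe hXN).toEquiv,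
      ← Nat.card_congr (Subgroup.subgroupOfEquivOfLe (hRX.trans hXN)).toEquiv,
      ← Subgroup.relIndex_bot_left, ← Subgroup.relIndex_bot_left]
    exact Subgroup.relIndex_mul_relIndex _ _ _ bot_le (Subgroup.comap_mono hRX)
  have hss : ∀ X : Subgroup G, Cfsg.IsSupersolvable X → X ≤ N →
      Cfsg.IsSupersolvable ((X.subgroupOf N).map f) := fun X hX hXN =>
    H32.isSupersolvable_of_surjective (f.subgroupMap (X.subgroupOf N))
      (f.subgroupMap_surjective _)
      (H32.isSupersolvable_of_mulEquiv (Subgroup.subgroupOfEquivOfLe hXN).symm hX)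
  have e1 := hcardX H hRH hHN
  have e2 := hcardX L hLR hLN
  have hRpos : 1 < Nat.card (RH : Subgroup G) := by
    refine (Subgroup.one_lt_card_iff_ne_bot _).2 (RH.ne_bot_of_dvd_card ?_)
    exact hqm.2.1.trans H.card_subgroup_dvd_card
  have hlt : Nat.card ((H.subgroupOf N).map f) < n := by
    rw [← hn, ← e1]
    exact lt_mul_of_one_lt_left Nat.card_pos hRpos
  have hcard' : Nat.card ((H.subgroupOf N).map f) = Nat.card ((L.subgroupOf N).map f) :=
    Nat.eq_of_mul_eq_mul_left Nat.card_pos (e1.trans (hLc.symm.trans e2.symm))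
  have hHall' : (Nat.card ((H.subgroupOf N).map f)).Coprime ((H.subgroupOf N).map f).index := by
    rw [Subgroup.index_map_eq _ (QuotientGroup.mk'_surjective _) (hkerX H hRH)]
    exact (hHall.coprime_dvd_left (e1 ▸ dvd_mul_left _ _)).coprime_dvd_right
      (Dvd.intro _ (Subgroup.relIndex_mul_index hHN))
  have hssL : Cfsg.IsSupersolvable L :=
    H32.isSupersolvable_of_mulEquiv (Subgroup.equivSMul (MulAut.conj g) K) hK
  obtain ⟨xb, hxb⟩ := ih _ hlt ((H.subgroupOf N).map f) ((L.subgroupOf N).map f) (hss H hH hHN)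
    (hss L hssL hLN) hcard' hHall' rfl
  obtain ⟨x, rfl⟩ := QuotientGroup.mk'_surjective _ xb
  rw [← H19.map_conj_smul, Subgroup.map_eq_map_iff, sup_eq_left.2, sup_eq_left.2 (hkerX L hLR)]
    at hxb
  · refine ⟨g⁻¹ * (x : G), ?_⟩
    have e := congr_arg (Subgroup.map N.subtype) hxb
    rw [H19.map_conj_smul, Subgroup.map_subgroupOf_eq_of_le hHN,
      Subgroup.map_subgroupOf_eq_of_le hLN] at e
    change MulAut.conj (x : G) • H = L at e
    rw [H19.conj_mul_smul, e, hL, map_inv, inv_smul_smul]
  · rw [← H19.conj_smul_normal x f.ker]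
    exact Subgroup.pointwise_smul_le_pointwise_smul_iff.2 (hkerX H hRH)

end Cfsg.Agent.H33
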