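import Cfsg.Agent.H33.Basic

/-! Sylow subgroups of a product of two subgroups. -/

open scoped Pointwise

namespace Cfsg.Agent.H33

variable {G : Type*} [Group G]

/-- A `p`-subgroup's order divides the `p`-part of the order of any subgroup containing it. -/
theorem card_dvd_ordProj [Finite G] {p : ℕ} [hp : Fact p.Prime] {P H : Subgroup G}
    (hP : IsPGroup p P) (hle : P ≤ H) :
    Nat.card P ∣ p ^ (Nat.card H).factorization p := by
  obtain ⟨k, hk⟩ := hP.exists_card_eq
  rw [hk]
  refine pow_dvd_pow p ((hp.out.pow_dvd_iff_le_factorization Nat.card_pos.ne').1 ?_)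
  rw [← hk]
  exact Subgroup.card_dvd_of_le hle

/-- Two `p`-subgroups of full `p`-order in the factors, lying in one `p`-subgroup, multiply to a
Sylow subgroup of the product. -/
theorem sylow_prod [Finite G] {p : ℕ} [hp : Fact p.Prime] {A B P Q : Subgroup G}
    (h : ∀ g : G, ∃ a ∈ A, ∃ b ∈ B, g = a * b) (hPA : P ≤ A) (hQB : Q ≤ B)
    (hPc : Nat.card P = p ^ (Nat.card A).factorization p)
    (hQc : Nat.card Q = p ^ (Nat.card B).factorization p) (R : Sylow p G)
    (hPR : P ≤ (R : Subgroup G)) (hQR : Q ≤ (R : Subgroup G)) :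
    ∀ r ∈ (R : Subgroup G), ∃ a ∈ P, ∃ b ∈ Q, r = a * b := by
  refine exists_mul_of_card_le hPR hQR ?_
  have hc := card_prod h
  have e : (Nat.card A).factorization p + (Nat.card B).factorization p =
      (Nat.card G).factorization p + (Nat.card (A ⊓ B : Subgroup G)).factorization p := by
    have := congrArg (fun n => n.factorization p) hc
    rw [Nat.factorization_mul Nat.card_pos.ne' Nat.card_pos.ne',
      Nat.factorization_mul Nat.card_pos.ne' Nat.card_pos.ne'] at this
    simpa using this
  rw [hPc, hQc, R.card_eq_multiplicity, ← pow_add, e, pow_add]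
  refine Nat.mul_le_mul_left _ (Nat.le_of_dvd (pow_pos hp.out.pos _) ?_)
  exact card_dvd_ordProj (R.2.to_le (inf_le_left.trans hPR)) (inf_le_inf hPA hQB)

/-- Order of a Sylow subgroup of a subgroup, inside the ambient group. -/
theorem card_map_sylow [Finite G] {p : ℕ} [Fact p.Prime] {A : Subgroup G} (P : Sylow p A) :
    Nat.card ((P : Subgroup A).map A.subtype) = p ^ (Nat.card A).factorization p := by
  rw [Subgroup.card_subtype, P.card_eq_multiplicity]

end Cfsg.Agent.H33
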