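import Cfsg.Agent.H19.Carter
import Cfsg.Agent.H19.MinimalNormal
import Cfsg.Agent.H32.ComplementSystem
import Cfsg.Agent.H33.Basic
import Cfsg.Agent.H33.Nilpotent
import Cfsg.Agent.H33.MinimalNonNilpotent

/-! System normalizers: chief factors, Carter subgroups. -/

open scoped Pointwise commutatorElement

namespace Cfsg.Agent.H33

universe u

/-- A normal `q`-subgroup lies in every subgroup of `p`-power index, `q ≠ p`. -/
theorem le_of_normal_pgroup_of_index {G : Type*} [Group G] [Finite G] {q p : ℕ} [hq : Fact q.Prime]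
    (hp : p.Prime) (hqp : q ≠ p) (N : Subgroup G) [N.Normal] (hN : IsPGroup q N) {K : Subgroup G}
    {a : ℕ} (hK : K.index = p ^ a) : N ≤ K := by
  obtain ⟨k, hk⟩ := IsPGroup.iff_card.1 hN
  refine Subgroup.relIndex_eq_one.1 (Nat.eq_one_of_dvd_coprimes
    (Nat.Coprime.pow k a ((Nat.coprime_primes hq.out hp).2 hqp)) ?_ ?_)
  · exact hk ▸ Subgroup.relIndex_dvd_card K N
  · exact hK ▸ H32.relIndex_dvd_index' K N

/-- An element of a noncentral minimal normal `p`-subgroup commuting with a subgroup of `p`-power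
index is trivial. -/
theorem eq_one_of_commute_complement {X : Type*} [Group X] [Finite X] [Group.IsSolvable X]
    (B : Subgroup X) [B.Normal] (hB0 : B ≠ ⊥)
    (hmin : ∀ M : Subgroup X, M.Normal → M ≤ B → M = ⊥ ∨ M = B) (hnc : ¬ B ≤ Subgroup.center X)
    {p : ℕ} [hp : Fact p.Prime] (hBp : IsPGroup p B) (K : Subgroup X) {a : ℕ}
    (hK : K.index = p ^ a) {x : X} (hx : x ∈ B) (hc : ∀ k ∈ K, Commute x k) : x = 1 := by
  set C := Subgroup.centralizer (B : Set X) with hC
  have hC1 : C ≠ ⊤ := by
    intro e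
    refine hnc fun b hb => Subgroup.mem_center_iff.2 fun y => ?_
    exact (Subgroup.mem_centralizer_iff.1 ((hC ▸ e) ▸ Subgroup.mem_top y :
      y ∈ Subgroup.centralizer (B : Set X)) b hb).symm
  haveI : Nontrivial (X ⧸ C) := QuotientGroup.nontrivial_iff.2 hC1
  obtain ⟨Rb, q, hRn, hR0, -, hq, hRq, -⟩ := H19.exists_normal_elementary (G := X ⧸ C)
  haveI := hRn
  haveI : Fact q.Prime := ⟨hq⟩
  set f := QuotientGroup.mk' C
  have hsurj : Function.Surjective f := QuotientGroup.mk'_surjective C
  set R := Rb.comap f with hR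
  haveI : R.Normal := hRn.comap f
  have hRC : ¬ R ≤ C := by
    intro hle
    apply hR0
    rw [← Subgroup.map_comap_eq_self_of_surjective hsurj Rb, eq_bot_iff, ← hR]
    exact (Subgroup.map_mono hle).trans (QuotientGroup.map_mk'_self C).le
  set U := B ⊓ Subgroup.centralizer (R : Set X) with hU
  have hU0 : U = ⊥ := (hmin U inferInstance inf_le_left).resolve_right fun e =>
    hRC (Subgroup.le_centralizer_iff.1 (inf_eq_left.1 e))
  by_cases hqp : q = p
  · subst hqp
    exfalso
    let φ : R →* MulAut B := MulAut.conjNormal.comp R.subtype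
    have hφ : IsPGroup q φ.range := by
      rintro ⟨_, r, rfl⟩
      obtain ⟨k, hk⟩ := hRq ⟨f r, r.2⟩
      refine ⟨k, Subtype.ext ?_⟩
      have h1 : f ((r : X) ^ q ^ k) = 1 := by
        rw [map_pow]; exact congrArg Subtype.val hk
      have h2 : (r : X) ^ q ^ k ∈ C := (QuotientGroup.eq_one_iff _).1 h1
      change φ r ^ q ^ k = 1
      rw [← map_pow]
      refine MulEquiv.ext fun b => Subtype.ext ?_
      change (MulAut.conjNormal ((r ^ q ^ k : R) : X) b : X) = b
      rw [MulAut.conjNormal_apply, Subgroup.coe_pow, ← Subgroup.mem_centralizer_iff.1 h2 _ b.2,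
        mul_inv_cancel_right]
    obtain ⟨k, hk⟩ := IsPGroup.iff_card.1 hBp
    have hdvd : q ∣ Nat.card B := by
      rw [hk]
      refine dvd_pow_self q fun e => hB0 (Subgroup.card_eq_one.1 (by rw [hk, e, pow_zero]))
    obtain ⟨b, hb, hb1⟩ := hφ.exists_fixed_point_of_prime_dvd_card_of_fixed_point B hdvd
      (a := (1 : B)) (fun g => smul_one g)
    have hbU : (b : X) ∈ U := by
      refine Subgroup.mem_inf.2 ⟨b.2, Subgroup.mem_centralizer_iff.2 fun r hr => ?_⟩
      have h3 : φ ⟨r, hr⟩ b = b := hb ⟨φ ⟨r, hr⟩, _, rfl⟩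
      have h4 : r * (b : X) * r⁻¹ = b :=
        (MulAut.conjNormal_apply r b).symm.trans (congrArg Subtype.val h3)
      exact mul_inv_eq_iff_eq_mul.1 h4
    rw [hU0, Subgroup.mem_bot] at hbU
    exact hb1 (Subtype.ext hbU.symm)
  · have hxU : x ∈ U := by
      obtain ⟨b, -, hb⟩ := (Nat.dvd_prime_pow hp.out).1
        (hK ▸ Subgroup.index_map_dvd K hsurj : (K.map f).index ∣ p ^ a)
      have hle : Rb ≤ K.map f := le_of_normal_pgroup_of_index hp.out hqp Rb hRq hb
      have hR' : R ≤ K ⊔ C := by
        refine (Subgroup.comap_mono hle).trans ?_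
        rw [Subgroup.comap_map_eq, QuotientGroup.ker_mk']
      refine Subgroup.mem_inf.2 ⟨hx, Subgroup.mem_centralizer_iff.2 fun r hr => ?_⟩
      have hxc : K ⊔ C ≤ Subgroup.centralizer ({x} : Set X) := by
        refine sup_le (fun k hk => ?_) (fun c hc' => ?_)
        · rw [Subgroup.mem_centralizer_singleton_iff]
          exact (hc k hk).eq.symm
        · rw [Subgroup.mem_centralizer_singleton_iff]
          exact (Subgroup.mem_centralizer_iff.1 hc' x hx).symm
      exact Subgroup.mem_centralizer_singleton_iff.1 (hxc (hR' hr))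
    rwa [hU0, Subgroup.mem_bot] at hxU

/-- A system normalizer avoids the noncentral minimal normal subgroups. -/
theorem inf_systemNormalizer_eq_bot {X : Type*} [Group X] [Finite X] [Group.IsSolvable X]
    {K : Nat.Primes → Subgroup X} (hK : Cfsg.IsComplementSystem K) (B : Subgroup X) [B.Normal]
    (hB0 : B ≠ ⊥) (hmin : ∀ M : Subgroup X, M.Normal → M ≤ B → M = ⊥ ∨ M = B)
    (hnc : ¬ B ≤ Subgroup.center X) : B ⊓ Cfsg.systemNormalizer K = ⊥ := by
  obtain ⟨-, p, hp, hBp, -⟩ := H19.minimalNormal_elementary B inferInstance hB0 hmin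
  haveI : Fact p.Prime := ⟨hp⟩
  rw [eq_bot_iff]
  intro x hx
  rw [Subgroup.mem_inf, Cfsg.systemNormalizer, Subgroup.mem_iInf] at hx
  refine Subgroup.mem_bot.2 (eq_one_of_commute_complement B hB0 hmin hnc hBp _ (hK ⟨p, hp⟩) hx.1
    fun k hk => ?_)
  have hbot := H19.inf_eq_bot_of_isPGroup_coprime hBp (H19.coprime_of_index_eq hp (hK ⟨p, hp⟩))
  have h1 : x * k * x⁻¹ * k⁻¹ ∈ B ⊓ K ⟨p, hp⟩ := by
    refine Subgroup.mem_inf.2 ⟨?_, ?_⟩
    · rw [show x * k * x⁻¹ * k⁻¹ = x * (k * x⁻¹ * k⁻¹) by group]
      exact B.mul_mem hx.1 ((inferInstance : B.Normal).conj_mem _ (B.inv_mem hx.1) k)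
    · exact mul_mem ((Subgroup.mem_normalizer_iff.1 (hx.2 ⟨p, hp⟩) k).1 hk) (inv_mem hk)
  rw [hbot, Subgroup.mem_bot, mul_inv_eq_one, mul_inv_eq_iff_eq_mul] at h1
  exact h1

/-- System normalizers cover central chief factors and avoid the others. -/
theorem cover_and_avoid {G : Type*} [Group G] [Finite G] [Group.IsSolvable G]
    (K : Nat.Primes → Subgroup G) (hK : Cfsg.IsComplementSystem K) (A B : Subgroup G) [A.Normal]
    [B.Normal] (hAB : A < B)
    (hchief : ∀ N : Subgroup G, N.Normal → A ≤ N → N ≤ B → N = A ∨ N = B) :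
    (⁅B, (⊤ : Subgroup G)⁆ ≤ A → B ≤ A ⊔ Cfsg.systemNormalizer K) ∧
      (¬ ⁅B, (⊤ : Subgroup G)⁆ ≤ A → B ⊓ Cfsg.systemNormalizer K ≤ A) := by
  set f := QuotientGroup.mk' A with hf
  have hsurj : Function.Surjective f := QuotientGroup.mk'_surjective A
  have hmap := H32.systemNormalizer_map hK A
  constructor
  · intro hc
    have h1 : B.map f ≤ Cfsg.systemNormalizer (fun p => (K p).map f) := by
      refine le_iInf fun p => ?_
      refine le_trans ?_ (Subgroup.center_le_normalizer _)
      rintro _ ⟨b, hb, rfl⟩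
      rw [Subgroup.mem_center_iff]
      intro y
      obtain ⟨g, rfl⟩ := hsurj y
      refine Eq.symm (commutatorElement_eq_one_iff_mul_comm.1 ?_)
      rw [← map_commutatorElement]
      exact (QuotientGroup.eq_one_iff _).2
        (hc (Subgroup.commutator_mem_commutator hb (Subgroup.mem_top g)))
    rw [hmap, Subgroup.map_le_map_iff, QuotientGroup.ker_mk', sup_comm] at h1
    exact h1
  · intro hnc
    haveI : (B.map f).Normal := (inferInstance : B.Normal).map f hsurj
    have h0 : B.map f ≠ ⊥ := by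
      rw [Ne, Subgroup.map_eq_bot_iff, hf, QuotientGroup.ker_mk']
      exact hAB.not_ge
    have hmin : ∀ M : Subgroup (G ⧸ A), M.Normal → M ≤ B.map f → M = ⊥ ∨ M = B.map f := by
      intro M hM hle
      have hA : A ≤ M.comap f := fun x hx => by
        rw [Subgroup.mem_comap, hf, QuotientGroup.mk'_apply, (QuotientGroup.eq_one_iff x).2 hx]
        exact M.one_mem
      have hB : M.comap f ≤ B := by
        refine (Subgroup.comap_mono hle).trans (Subgroup.comap_map_eq_self ?_).le
        rw [hf, QuotientGroup.ker_mk']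
        exact hAB.le
      rcases hchief _ (hM.comap f) hA hB with e | e
      · refine Or.inl ?_
        rw [← Subgroup.map_comap_eq_self_of_surjective hsurj M, e]
        exact QuotientGroup.map_mk'_self A
      · refine Or.inr ?_
        rw [← Subgroup.map_comap_eq_self_of_surjective hsurj M, e]
    have hz : ¬ B.map f ≤ Subgroup.center (G ⧸ A) := by
      intro hle
      refine hnc (Subgroup.commutator_le.2 fun b hb g _ => (QuotientGroup.eq_one_iff _).1 ?_)
      change f ⁅b, g⁆ = 1
      rw [map_commutatorElement, commutatorElement_eq_one_iff_mul_comm]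
      exact (Subgroup.mem_center_iff.1 (hle (Subgroup.mem_map_of_mem f hb)) (f g)).symm
    have h1 := inf_systemNormalizer_eq_bot (H32.isComplementSystem_map hK A) (B.map f) h0 hmin hz
    rw [hmap] at h1
    intro x hx
    rw [Subgroup.mem_inf] at hx
    have : f x ∈ (⊥ : Subgroup (G ⧸ A)) := h1 ▸ Subgroup.mem_inf.2
      ⟨Subgroup.mem_map_of_mem f hx.1, Subgroup.mem_map_of_mem f hx.2⟩
    exact (QuotientGroup.eq_one_iff x).1 (Subgroup.mem_bot.1 this)

/-- Complement systems exist in solvable groups. -/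
theorem exists_complementSystem (G : Type*) [Group G] [Finite G] [Group.IsSolvable G] :
    ∃ K : Nat.Primes → Subgroup G, Cfsg.IsComplementSystem K :=
  ⟨fun p => (H19.exists_pComplement (G := G) p.2).choose,
    fun p => (H19.exists_pComplement (G := G) p.2).choose_spec⟩

/-- Conjugates of complement systems. -/
theorem isComplementSystem_conj {G : Type*} [Group G] [Finite G] {K : Nat.Primes → Subgroup G}
    (hK : Cfsg.IsComplementSystem K) (g : G) :
    Cfsg.IsComplementSystem fun p => MulAut.conj g • K p :=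
  fun p => (H32.index_conj_smul g (K p)).trans (hK p)

/-- The system normalizer of a conjugate system. -/
theorem systemNormalizer_conj {G : Type*} [Group G] (K : Nat.Primes → Subgroup G) (g : G) :
    Cfsg.systemNormalizer (fun p => MulAut.conj g • K p) =
      MulAut.conj g • Cfsg.systemNormalizer K := by
  ext x
  rw [H19.mem_conj_smul, Cfsg.systemNormalizer, Cfsg.systemNormalizer, Subgroup.mem_iInf,
    Subgroup.mem_iInf]
  refine forall_congr' fun p => ?_
  rw [← H32.conj_smul_eq_iff_mem_normalizer, ← H32.conj_smul_eq_iff_mem_normalizer,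
    H19.conj_mul_smul, H19.conj_mul_smul, map_inv, inv_smul_eq_iff]

/-- A self-normalizing nilpotent subgroup is not moved inside an overgroup by elements outside. -/
theorem mem_of_conj_carter_le {G : Type*} [Group G] [Finite G] [Group.IsSolvable G]
    {C J : Subgroup G} (hC : Cfsg.IsCarterSubgroup C) (hCJ : C ≤ J) {g : G}
    (hg : MulAut.conj g • C ≤ J) : g ∈ J := by
  obtain ⟨hCn, hCs⟩ := hC
  haveI := hCn
  obtain ⟨j, hj⟩ := H19.carter_conj (G := J) (C := (MulAut.conj g • C).subgroupOf J)
    (D := C.subgroupOf J)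
    (Group.nilpotent_of_mulEquiv ((Subgroup.equivSMul (MulAut.conj g) C).trans
      (Subgroup.subgroupOfEquivOfLe hg).symm))
    (H19.selfNormalizing_subgroupOf hg (H19.selfNormalizing_conj hCs g))
    (Group.nilpotent_of_mulEquiv (Subgroup.subgroupOfEquivOfLe hCJ).symm)
    (H19.selfNormalizing_subgroupOf hCJ hCs)
  have e := congrArg (Subgroup.map J.subtype) hj
  rw [H19.map_conj_smul, Subgroup.map_subgroupOf_eq_of_le hg,
    Subgroup.map_subgroupOf_eq_of_le hCJ] at e
  change MulAut.conj (j : G) • MulAut.conj g • C = C at e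
  rw [← H19.conj_mul_smul, H32.conj_smul_eq_iff_mem_normalizer, hCs] at e
  exact (J.mul_mem_cancel_left j.2).1 (hCJ e)

/-- Every Carter subgroup contains a system normalizer. -/
theorem exists_systemNormalizer_le {G : Type u} [Group G] [Finite G] [Group.IsSolvable G]
    {C : Subgroup G} (hC : Cfsg.IsCarterSubgroup C) :
    ∃ K : Nat.Primes → Subgroup G, Cfsg.IsComplementSystem K ∧ Cfsg.systemNormalizer K ≤ C := by
  induction hn : Nat.card G using Nat.strong_induction_on generalizing G with
  | _ n ih =>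
  by_cases hC1 : C = ⊤
  · obtain ⟨K, hK⟩ := exists_complementSystem G
    exact ⟨K, hK, hC1 ▸ le_top⟩
  obtain ⟨M, hM, hCM⟩ := (eq_top_or_exists_le_coatom C).resolve_left hC1
  haveI : Group.IsNilpotent C := hC.1
  obtain ⟨K', hK', hD'⟩ := ih _ (hn ▸ H19.card_lt_of_ne_top M hM.1) (C := C.subgroupOf M)
    ⟨Group.nilpotent_of_mulEquiv (Subgroup.subgroupOfEquivOfLe hCM).symm,
      H19.selfNormalizing_subgroupOf hCM hC.2⟩ rfl
  have hMn : ¬ M.Normal := by
    intro hn'
    refine hM.1 (eq_top_iff.2 fun g _ => mem_of_conj_carter_le hC hCM ?_)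
    rw [← H19.conj_smul_normal g M]
    exact Subgroup.pointwise_smul_le_pointwise_smul_iff.2 hCM
  obtain ⟨p, a, hp', ha, hpa⟩ := H19.isPrimePow_index_coatom M hM
  have hp : p.Prime := hp'.nat_prime
  haveI : Fact p.Prime := ⟨hp⟩
  have hv : ∀ q : ℕ, (Nat.card G).factorization q =
      (Nat.card M).factorization q + if p = q then a else 0 := by
    intro q
    rw [← M.card_mul_index, ← hpa, Nat.factorization_mul Nat.card_pos.ne' (pow_ne_zero _ hp.ne_zero),
      Finsupp.add_apply, hp.factorization_pow, Finsupp.single_apply]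
  have hchoice : ∀ q : Nat.Primes, ∃ H : Subgroup G,
      H.index = (q : ℕ) ^ (Nat.card G).factorization q ∧ H ⊓ M = (K' q).map M.subtype := by
    intro q
    by_cases hpq : p = (q : ℕ)
    · refine ⟨(K' q).map M.subtype, ?_, inf_eq_left.2 (Subgroup.map_subtype_le _)⟩
      rw [Subgroup.index_map_subtype, hK' q, ← hpa, hv, if_pos hpq, pow_add, hpq]
    · have hveq : (Nat.card G).factorization q = (Nat.card M).factorization q := by
        rw [hv, if_neg hpq, add_zero]
      set v := (Nat.card G).factorization q with hv'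
      have hcopK : (Nat.card (K' q)).Coprime q := H19.coprime_of_index_eq q.2 (hK' q)
      have hG : Nat.card G = Nat.card G / (q : ℕ) ^ v * (q : ℕ) ^ v :=
        (Nat.div_mul_cancel (Nat.ordProj_dvd _ _)).symm
      have hmn : (Nat.card G / (q : ℕ) ^ v).Coprime ((q : ℕ) ^ v) :=
        ((Nat.coprime_ordCompl q.2 Nat.card_pos.ne').symm).pow_right _
      have hcard : Nat.card ((K' q).map M.subtype : Subgroup G) = Nat.card (K' q) :=
        Subgroup.card_map_of_injective M.subtype_injective
      obtain ⟨H, hHc, hHK⟩ := H19.hall_dominance hG hmn ((K' q).map M.subtype)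
        (by rw [hcard]; exact hcopK.pow_right _)
      refine ⟨H, Nat.eq_of_mul_eq_mul_left (Nat.card_pos (α := H)) ?_, ?_⟩
      · rw [H.card_mul_index, hHc]; exact hG
      · refine (Subgroup.eq_of_le_of_card_ge (le_inf hHK (Subgroup.map_subtype_le _)) ?_).symm
        rw [hcard]
        refine Nat.le_of_dvd Nat.card_pos ((Nat.Coprime.coprime_dvd_left
          (Subgroup.card_dvd_of_le inf_le_left) (hHc ▸ hmn)).dvd_of_dvd_mul_right ?_)
        rw [hveq, ← hK' q, Subgroup.card_mul_index]
        exact Subgroup.card_dvd_of_le inf_le_right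
  choose K hKidx hKM using hchoice
  refine ⟨K, hKidx, ?_⟩
  -- the system normalizer lies in `M`
  set L := M.normalCore with hL
  set f := QuotientGroup.mk' L with hf
  have hsurj : Function.Surjective f := QuotientGroup.mk'_surjective L
  have hker : f.ker ≤ M := by rw [hf, QuotientGroup.ker_mk']; exact Subgroup.normalCore_le M
  have hcm : (M.map f).comap f = M := Subgroup.comap_map_eq_self hker
  have hMb : IsCoatom (M.map f) := by
    refine ⟨fun h' => hM.1 (by rw [← hcm, h', Subgroup.comap_top]), fun Y hY => ?_⟩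
    have h1 := (Subgroup.comap_lt_comap_of_surjective hsurj).2 hY
    rw [hcm] at h1
    rw [← Subgroup.map_comap_eq_self_of_surjective hsurj Y, hM.2 _ h1,
      Subgroup.map_top_of_surjective _ hsurj]
  have hcore : ∀ Y : Subgroup (G ⧸ L), Y.Normal → Y ≤ M.map f → Y = ⊥ := by
    intro Y hY hle
    haveI : (Y.comap f).Normal := hY.comap f
    have h1 : Y.comap f ≤ L := Subgroup.normal_le_normalCore.2 ((Subgroup.comap_mono hle).trans hcm.le)
    rw [← Subgroup.map_comap_eq_self_of_surjective hsurj Y, eq_bot_iff]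
    exact (Subgroup.map_mono h1).trans (QuotientGroup.map_mk'_self L).le
  haveI : Nontrivial (G ⧸ L) := QuotientGroup.nontrivial_iff.2 fun e =>
    hM.1 (top_le_iff.1 (e ▸ Subgroup.normalCore_le M))
  obtain ⟨N, hN, hN0, -, hNmin⟩ := H19.exists_minimalNormal_le (⊤ : Subgroup (G ⧸ L)) top_ne_bot
  haveI := hN
  obtain ⟨hNc, -⟩ := H19.minimalNormal_elementary N inferInstance hN0 hNmin
  haveI := hNc
  have hsup : N ⊔ M.map f = ⊤ :=
    hMb.2 _ (right_lt_sup.2 fun h => hN0 (hcore N hN h))
  have hinf : N ⊓ M.map f = ⊥ :=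
    hcore _ (H19.inf_normal_of_sup_eq_top N (M.map f) hsup) inf_le_right
  have hnc : ¬ N ≤ Subgroup.center (G ⧸ L) := by
    intro hle
    refine hMn (hcm ▸ Subgroup.Normal.comap ?_ f)
    rw [← Subgroup.normalizer_eq_top_iff, eq_top_iff, ← hsup]
    exact sup_le (hle.trans (Subgroup.center_le_normalizer _)) Subgroup.le_normalizer
  have hNp : IsPGroup p N := by
    refine IsPGroup.of_card (n := a) ?_
    rw [hpa, ← M.index_map_eq hsurj hker]
    exact (Subgroup.isComplement'_of_disjoint_and_mul_eq_univ (disjoint_iff.2 hinf) (by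
      rw [← Subgroup.normal_mul, hsup, Subgroup.coe_top])).index_eq_card.symm
  have hDM : Cfsg.systemNormalizer K ≤ M := by
    intro d hd
    rw [Cfsg.systemNormalizer, Subgroup.mem_iInf] at hd
    obtain ⟨n', hn', m, hm, e⟩ := H19.exists_mul_of_sup_eq_top hsup (f d)
    have hKp : (K ⟨p, hp⟩).map f ≤ M.map f := by
      refine Subgroup.map_mono ?_
      have h2 : (K ⟨p, hp⟩).index = ((K' ⟨p, hp⟩).map M.subtype).index := by
        refine (hKidx ⟨p, hp⟩).trans ?_
        rw [Subgroup.index_map_subtype, show (K' ⟨p, hp⟩).index = _ from hK' ⟨p, hp⟩, ← hpa]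
        change p ^ (Nat.card G).factorization p = p ^ (Nat.card M).factorization p * p ^ a
        rw [hv, if_pos rfl, pow_add]
      replace h2 : (K ⟨p, hp⟩).index = (K ⟨p, hp⟩ ⊓ M).index :=
        h2.trans (congrArg Subgroup.index (hKM ⟨p, hp⟩).symm)
      exact inf_eq_left.1 (Subgroup.eq_of_le_of_card_ge inf_le_left (le_of_eq (by
        have h3 := (Subgroup.card_mul_index (K ⟨p, hp⟩)).trans
          (Subgroup.card_mul_index (K ⟨p, hp⟩ ⊓ M)).symm
        rw [← h2] at h3
        exact Nat.eq_of_mul_eq_mul_right (Nat.pos_of_ne_zero Subgroup.index_ne_zero_of_finite) h3)))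
    have hn1 : n' = 1 := by
      refine eq_one_of_commute_complement N hN0 hNmin hnc hNp
        (MulAut.conj m • (K ⟨p, hp⟩).map f)
        ((H32.index_conj_smul m _).trans (H32.isComplementSystem_map hKidx L ⟨p, hp⟩)) hn'
        fun k hk => ?_
      rw [H19.mem_conj_smul] at hk
      have hdn : f d ∈ Subgroup.normalizer (((K ⟨p, hp⟩).map f : Subgroup (G ⧸ L)) : Set (G ⧸ L)) :=
        Subgroup.le_normalizer_map f ⟨d, hd ⟨p, hp⟩, rfl⟩
      have h1 := hKp ((Subgroup.mem_normalizer_iff.1 hdn _).1 hk)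
      rw [e] at h1
      have hkM : k ∈ M.map f := by
        have := mul_mem (mul_mem hm (hKp hk)) (inv_mem hm)
        simpa [mul_assoc] using this
      have h3 : n' * k * n'⁻¹ * k⁻¹ ∈ N ⊓ M.map f := by
        refine Subgroup.mem_inf.2 ⟨?_, mul_mem ?_ (inv_mem hkM)⟩
        · rw [show n' * k * n'⁻¹ * k⁻¹ = n' * (k * n'⁻¹ * k⁻¹) by group]
          exact N.mul_mem hn' (hN.conj_mem _ (N.inv_mem hn') k)
        · have e2 : n' * m * (m⁻¹ * k * m) * (n' * m)⁻¹ = n' * k * n'⁻¹ := by group
          rwa [e2] at h1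
      rw [hinf, Subgroup.mem_bot, mul_inv_eq_one, mul_inv_eq_iff_eq_mul] at h3
      exact h3
    rw [← hcm, Subgroup.mem_comap, e, hn1, one_mul]
    exact hm
  intro d hd
  have hdM := hDM hd
  have hd' : (⟨d, hdM⟩ : M) ∈ Cfsg.systemNormalizer K' := by
    rw [Cfsg.systemNormalizer, Subgroup.mem_iInf] at hd ⊢
    intro q
    have h1 : d ∈ Subgroup.normalizer (((K' q).map M.subtype : Subgroup G) : Set G) := by
      rw [← hKM q]
      exact Subgroup.inf_normalizer_le_normalizer_inf
        (Subgroup.mem_inf.2 ⟨hd q, Subgroup.le_normalizer hdM⟩)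
    have h2 := Subgroup.subgroupOf_normalizer_eq (Subgroup.map_subtype_le (K' q))
    have h3 : (⟨d, hdM⟩ : M) ∈ (Subgroup.normalizer
        (((K' q).map M.subtype : Subgroup G) : Set G)).subgroupOf M := h1
    rw [h2, show ((K' q).map M.subtype).subgroupOf M = K' q from
      Subgroup.comap_map_eq_self_of_injective M.subtype_injective _] at h3
    exact h3
  exact hD' hd'

/-- Every system normalizer is contained in a Carter subgroup. -/
theorem exists_carter_ge_systemNormalizer {G : Type u} [Group G] [Finite G] [Group.IsSolvable G]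
    {K : Nat.Primes → Subgroup G} (hK : Cfsg.IsComplementSystem K) :
    ∃ C : Subgroup G, Cfsg.IsCarterSubgroup C ∧ Cfsg.systemNormalizer K ≤ C := by
  obtain ⟨C, hCn, hCs⟩ := H19.carter_exists (G := G)
  obtain ⟨K₀, hK₀, hle⟩ := exists_systemNormalizer_le (C := C) ⟨hCn, hCs⟩
  obtain ⟨g, hg⟩ := H32.complementSystems_conj hK₀ hK
  haveI := hCn
  refine ⟨MulAut.conj g • C, ⟨Group.nilpotent_of_mulEquiv (Subgroup.equivSMul (MulAut.conj g) C),
    H19.selfNormalizing_conj hCs g⟩, ?_⟩
  rw [show K = fun p => MulAut.conj g • K₀ p from funext fun p => (hg p).symm, systemNormalizer_conj]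
  exact Subgroup.pointwise_smul_le_pointwise_smul_iff.2 hle

/-- In a nilpotent-by-nilpotent group the Carter subgroups are the system normalizers. -/
theorem isCarterSubgroup_iff_systemNormalizer {G : Type u} [Group G] [Finite G] (F : Subgroup G)
    [F.Normal] (hF : Group.IsNilpotent F) (hGF : Group.IsNilpotent (G ⧸ F)) (C : Subgroup G) :
    Cfsg.IsCarterSubgroup C ↔
      ∃ K : Nat.Primes → Subgroup G, Cfsg.IsComplementSystem K ∧ C = Cfsg.systemNormalizer K := by
  haveI := hF
  haveI := hGF
  haveI : Group.IsSolvable G :=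
    (Group.isSolvable_iff_subgroup_quotient F).2 ⟨inferInstance, inferInstance⟩
  have key : ∀ C : Subgroup G, Cfsg.IsCarterSubgroup C →
      ∃ K : Nat.Primes → Subgroup G, Cfsg.IsComplementSystem K ∧ C = Cfsg.systemNormalizer K := by
    intro C hC
    haveI : Group.IsNilpotent C := hC.1
    have hCF : C ⊔ F = ⊤ := by
      by_contra hne
      set f := QuotientGroup.mk' F with hf
      have hsurj : Function.Surjective f := QuotientGroup.mk'_surjective F
      have hcm : ((C ⊔ F).map f).comap f = C ⊔ F :=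
        Subgroup.comap_map_eq_self (by rw [hf, QuotientGroup.ker_mk']; exact le_sup_right)
      have hlt : (C ⊔ F).map f < ⊤ :=
        lt_top_iff_ne_top.2 fun e => hne (by rw [← hcm, e, Subgroup.comap_top])
      obtain ⟨y, hy1, hy2⟩ :=
        SetLike.exists_of_lt (Group.normalizerCondition_of_isNilpotent _ hlt)
      obtain ⟨g, rfl⟩ := hsurj y
      refine hy2 (Subgroup.mem_map_of_mem f (mem_of_conj_carter_le hC le_sup_left ?_))
      intro z hz
      rw [H19.mem_conj_smul] at hz
      rw [← hcm, Subgroup.mem_comap]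
      have h1 := (Subgroup.mem_normalizer_iff.1 hy1 (f (g⁻¹ * z * g))).1
        (Subgroup.mem_map_of_mem f (Subgroup.mem_sup_left hz))
      rw [← map_mul, ← map_inv, ← map_mul] at h1
      simpa [mul_assoc] using h1
    have hprod := H19.exists_mul_of_sup_eq_top (N := F) (H := C) (sup_comm C F ▸ hCF)
    let K : Nat.Primes → Subgroup G := fun p => pCoPart (p : ℕ) F ⊔ pCoPart (p : ℕ) C
    have hK : Cfsg.IsComplementSystem K := by
      intro p
      haveI : Fact (p : ℕ).Prime := ⟨p.2⟩
      haveI hN1 : (pCoPart (p : ℕ) F).Normal := by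
        rw [← Subgroup.normalizer_eq_top_iff, eq_top_iff, ← Subgroup.normalizer_eq_top (H := F)]
        exact normalizer_le_normalizer_pCoPart _ _
      haveI hN2 : (pPart (p : ℕ) F).Normal := by
        rw [← Subgroup.normalizer_eq_top_iff, eq_top_iff, ← Subgroup.normalizer_eq_top (H := F)]
        exact normalizer_le_normalizer_pPart _ _
      have hcop : (Nat.card (K p)).Coprime p :=
        (Nat.Coprime.mul_left card_pCoPart_coprime card_pCoPart_coprime).coprime_dvd_left
          ⟨_, (H32.card_sup_mul_card_inf (pCoPart (p : ℕ) C) (pCoPart (p : ℕ) F)).symm.trans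
            (by rw [sup_comm])⟩
      have hPP : IsPGroup (p : ℕ) (pPart (p : ℕ) F ⊔ pPart (p : ℕ) C : Subgroup G) :=
        isPGroup_pPart.to_sup_of_normal_left isPGroup_pPart
      have hfac : ∀ g : G, ∃ b ∈ K p, ∃ a ∈ pPart (p : ℕ) F ⊔ pPart (p : ℕ) C, g = b * a := by
        intro g
        obtain ⟨x, hx, y, hy, rfl⟩ := hprod g
        rw [← pPart_sup_pCoPart (p := (p : ℕ)) hF] at hx
        rw [← pPart_sup_pCoPart (p := (p : ℕ)) hC.1] at hy
        obtain ⟨x1, hx1, x2, hx2, rfl⟩ := exists_parts hx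
        obtain ⟨y1, hy1, y2, hy2, rfl⟩ := exists_parts hy
        refine ⟨x2 * y2, mul_mem (Subgroup.mem_sup_left hx2) (Subgroup.mem_sup_right hy2),
          (y2⁻¹ * x1 * y2) * y1, mul_mem (Subgroup.mem_sup_left ?_) (Subgroup.mem_sup_right hy1), ?_⟩
        · simpa using hN2.conj_mem x1 hx1 y2⁻¹
        · rw [(commute_parts hx1 hx2).eq, (commute_parts hy1 hy2).eq]
          group
      obtain ⟨k, hk⟩ := IsPGroup.iff_card.1 hPP
      have hd : (K p).index ∣ (p : ℕ) ^ k := by
        rw [index_eq_relIndex (A := pPart (p : ℕ) F ⊔ pPart (p : ℕ) C) (B := K p)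
          (prod_swap hfac), ← hk]
        exact Subgroup.relIndex_dvd_card _ _
      obtain ⟨j, -, hj⟩ := (Nat.dvd_prime_pow p.2).1 hd
      have hnd : ¬ (p : ℕ) ∣ Nat.card (K p) :=
        (Nat.Prime.coprime_iff_not_dvd p.2).1 hcop.symm
      have hjv : (Nat.card G).factorization p = j := by
        rw [← (K p).card_mul_index, hj, Nat.factorization_mul Nat.card_pos.ne'
          (pow_ne_zero _ p.2.ne_zero), Finsupp.add_apply,
          Nat.factorization_eq_zero_of_not_dvd hnd, p.2.factorization_pow, Finsupp.single_eq_same,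
          zero_add]
      rw [hjv, hj]
    refine ⟨K, hK, ?_⟩
    have hle : C ≤ Cfsg.systemNormalizer K := by
      refine le_iInf fun p => le_trans (le_inf ?_ (le_normalizer_pCoPart (p : ℕ) C))
        (Subgroup.normalizer_inf_normalizer_le_normalizer_sup _ _)
      exact le_trans (le_top.trans (Subgroup.normalizer_eq_top (H := F)).ge)
        (normalizer_le_normalizer_pCoPart _ _)
    haveI := H32.systemNormalizer_isNilpotent hK
    refine le_antisymm hle (Subgroup.subgroupOf_eq_top.1 ?_)
    by_contra hne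
    have := Group.normalizerCondition_of_isNilpotent _ (lt_top_iff_ne_top.2 hne)
    rw [H19.selfNormalizing_subgroupOf hle hC.2] at this
    exact lt_irrefl _ this
  refine ⟨key C, ?_⟩
  rintro ⟨K, hK, rfl⟩
  obtain ⟨C₀, hC₀n, hC₀s⟩ := H19.carter_exists (G := G)
  obtain ⟨K₀, hK₀, e⟩ := key C₀ ⟨hC₀n, hC₀s⟩
  obtain ⟨g, hg⟩ := H32.complementSystems_conj hK₀ hK
  haveI := hC₀n
  rw [show K = fun p => MulAut.conj g • K₀ p from funext fun p => (hg p).symm,
    systemNormalizer_conj, ← e]
  exact ⟨Group.nilpotent_of_mulEquiv (Subgroup.equivSMul (MulAut.conj g) C₀),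
    H19.selfNormalizing_conj hC₀s g⟩

end Cfsg.Agent.H33
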